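import Cfsg.Agent.ClassicalGeometry.Reflection
import Cfsg.Agent.ClassicalGeometry.RankOne
import Cfsg.Prelude.Def_SporadicB
set_option linter.all false

/-!
Orthogonal groups over the field with two elements: in the isometry group of a quadratic form with
non-degenerate polar form in dimension at least 5 the elements `g` with `g - 1` of rank one are a
generating conjugacy class of 3-transpositions.
-/

set_option autoImplicit false
set_option linter.unusedSectionVars false
set_option linter.unusedSimpArgs false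

namespace Cfsg.Agent.SporadicStructure.OrthTwo

open QuadraticMap Matrix Cfsg.Agent.ClassicalGeometry.Reflection
  Cfsg.Agent.ClassicalGeometry.RankOne

variable {ι : Type} [Fintype ι] [DecidableEq ι] (Q : QuadraticForm (ZMod 2) (ι → ZMod 2))

theorem zero_or_one (a : ZMod 2) : a = 0 ∨ a = 1 := by
  revert a; decide

theorem eq_one_of_ne_zero {a : ZMod 2} (h : a ≠ 0) : a = 1 := (zero_or_one a).resolve_left h

theorem add_self (a : ZMod 2) : a + a = 0 := CharTwo.add_self_eq_zero a

theorem vadd_self (x : ι → ZMod 2) : x + x = 0 := by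
  funext i
  exact add_self (x i)

/-- The polar form. -/
local notation "B" => QuadraticMap.polar (DFunLike.coe Q)

theorem B_self (x : ι → ZMod 2) : B x x = 0 := by
  rw [polar_self']
  have : (2 : ZMod 2) = 0 := by decide
  rw [this, zero_mul]

theorem B_add_left (x y z : ι → ZMod 2) : B (x + y) z = B x z + B y z :=
  QuadraticMap.polar_add_left Q x y z

theorem B_add_right (x y z : ι → ZMod 2) : B x (y + z) = B x y + B x z :=
  QuadraticMap.polar_add_right Q x y z

theorem B_comm (x y : ι → ZMod 2) : B x y = B y x := polar_comm (⇑Q) x y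

/-- The action of an isometry on vectors. -/
def act (g : Cfsg.isometryGroup (ZMod 2) (⇑Q)) (x : ι → ZMod 2) : ι → ZMod 2 :=
  ((g : Matrix.GeneralLinearGroup ι (ZMod 2)) : Matrix ι ι (ZMod 2)) *ᵥ x

theorem act_def (g : Cfsg.isometryGroup (ZMod 2) (⇑Q)) (x : ι → ZMod 2) :
    act Q g x = ((g : Matrix.GeneralLinearGroup ι (ZMod 2)) : Matrix ι ι (ZMod 2)) *ᵥ x := rfl

theorem act_mul (g h : Cfsg.isometryGroup (ZMod 2) (⇑Q)) (x : ι → ZMod 2) :
    act Q (g * h) x = act Q g (act Q h x) := coe_mul_mulVec _ g h x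

theorem act_one (x : ι → ZMod 2) : act Q 1 x = x := by
  simp [act_def]

theorem act_add (g : Cfsg.isometryGroup (ZMod 2) (⇑Q)) (x y : ι → ZMod 2) :
    act Q g (x + y) = act Q g x + act Q g y := Matrix.mulVec_add _ _ _

theorem act_smul (g : Cfsg.isometryGroup (ZMod 2) (⇑Q)) (c : ZMod 2) (x : ι → ZMod 2) :
    act Q g (c • x) = c • act Q g x := Matrix.mulVec_smul _ _ _

theorem act_Q (g : Cfsg.isometryGroup (ZMod 2) (⇑Q)) (x : ι → ZMod 2) :
    Q (act Q g x) = Q x := (mem_isometryGroup_iff _ _).1 g.2 x

theorem act_B (g : Cfsg.isometryGroup (ZMod 2) (⇑Q)) (x y : ι → ZMod 2) :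
    B (act Q g x) (act Q g y) = B x y :=
  polar_mulVec_of_isometry Q _ ((mem_isometryGroup_iff _ _).1 g.2) x y

theorem act_ext {g h : Cfsg.isometryGroup (ZMod 2) (⇑Q)} (H : ∀ x, act Q g x = act Q h x) :
    g = h := isometryGroup_ext _ g h H

/-- The action of the transvection `t_v`. -/
theorem act_refl (v : ι → ZMod 2) (hv : Q v ≠ 0) (x : ι → ZMod 2) :
    act Q (reflIso Q v hv) x = x + B v x • v := by
  rw [act_def, coe_reflIso, reflectionMatrix_mulVec, eq_one_of_ne_zero hv, inv_one, one_mul,
    sub_eq_add_neg, ← neg_smul, CharTwo.neg_eq]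

/-- The subgroup generated by the transvections. -/
def R : Subgroup (Cfsg.isometryGroup (ZMod 2) (⇑Q)) :=
  Subgroup.closure {g | ∃ (v : ι → ZMod 2) (hv : Q v ≠ 0), g = reflIso Q v hv}

theorem refl_mem_R (v : ι → ZMod 2) (hv : Q v ≠ 0) : reflIso Q v hv ∈ R Q :=
  Subgroup.subset_closure ⟨v, hv, rfl⟩

variable {Q}

/-- Among `k`, `k'`, `k + k'` one has a quadratic value different from a given linear value. -/
theorem exists_avoid (hQ : ∀ u, (∀ v, B u v = 0) → u = 0) (h5 : 5 ≤ Fintype.card ι)
    (v w u : ι → ZMod 2) : ∃ k, B v k = 0 ∧ B w k = 0 ∧ Q k ≠ B u k := by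
  by_contra hcon
  push Not at hcon
  have hnd : (polarBilin Q).Nondegenerate := by
    refine ⟨fun x hx => hQ x fun y => hx y, fun x hx => hQ x fun y => ?_⟩
    rw [B_comm]
    exact hx y
  set K := LinearMap.BilinForm.orthogonal (polarBilin Q) (Submodule.span (ZMod 2) {v, w}) with hK
  have hmem : ∀ k, k ∈ K ↔ B v k = 0 ∧ B w k = 0 := by
    intro k
    rw [hK, LinearMap.BilinForm.mem_orthogonal_iff]
    constructor
    · intro h
      exact ⟨h v (Submodule.subset_span (by simp)), h w (Submodule.subset_span (by simp))⟩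
    · rintro ⟨h1, h2⟩ n hn
      rw [Submodule.mem_span_pair] at hn
      obtain ⟨a, b, rfl⟩ := hn
      show polar (⇑Q) (a • v + b • w) k = 0
      rw [B_add_left, QuadraticMap.polar_smul_left, QuadraticMap.polar_smul_left, h1, h2]
      simp
  have hle : K ≤ LinearMap.BilinForm.orthogonal (polarBilin Q) K := by
    intro k hk
    rw [LinearMap.BilinForm.mem_orthogonal_iff]
    intro n hn
    show polar (⇑Q) n k = 0
    have h1 := hcon k ((hmem k).1 hk).1 ((hmem k).1 hk).2
    have h2 := hcon n ((hmem n).1 hn).1 ((hmem n).1 hn).2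
    have h12 := K.add_mem hn hk
    have h3 := hcon (n + k) ((hmem _).1 h12).1 ((hmem _).1 h12).2
    rw [QuadraticMap.map_add Q, B_add_right, h1, h2] at h3
    simpa using h3
  have hf1 := LinearMap.BilinForm.finrank_orthogonal hnd (Submodule.span (ZMod 2) {v, w})
  have hf2 := LinearMap.BilinForm.finrank_orthogonal hnd K
  have hf3 := Submodule.finrank_mono hle
  have hf4 : Module.finrank (ZMod 2) (Submodule.span (ZMod 2) {v, w} : Submodule (ZMod 2) (ι → ZMod 2)) ≤ 2 := by
    have := finrank_span_finset_le_card (R := ZMod 2) ({v, w} : Finset (ι → ZMod 2))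
    refine le_trans (le_of_eq ?_) (this.trans Finset.card_le_two)
    rw [Set.finrank, Finset.coe_pair]
  have hf5 : Module.finrank (ZMod 2) (ι → ZMod 2) = Fintype.card ι := Module.finrank_fintype_fun_eq_card _
  rw [← hK] at hf1
  omega

/-- A Siegel transformation along two orthogonal singular vectors is a product of four
transvections. -/
theorem siegel_mem (hQ : ∀ u, (∀ v, B u v = 0) → u = 0) (h5 : 5 ≤ Fintype.card ι)
    (y w : ι → ZMod 2) (hy : Q y = 0) (hw : Q w = 0) (hyw : B y w = 0) :
    ∃ r ∈ R Q, ∀ s, act Q r s = s + B y s • w + B w s • y := by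
  obtain ⟨z, hz1, hz2, hz3⟩ := exists_avoid hQ h5 y w 0
  rw [QuadraticMap.polar_zero_left] at hz3
  have hz : Q z = 1 := eq_one_of_ne_zero hz3
  have e1 : Q (z + y) ≠ 0 := by
    rw [QuadraticMap.map_add Q, hz, hy, B_comm, hz1]; decide
  have e2 : Q (z + w) ≠ 0 := by
    rw [QuadraticMap.map_add Q, hz, hw, B_comm, hz2]; decide
  have e3 : Q (z + y + w) ≠ 0 := by
    rw [QuadraticMap.map_add Q, QuadraticMap.map_add Q, hz, hy, hw, B_add_left, hyw, B_comm Q z y,
      hz1, B_comm Q z w, hz2]; decide
  refine ⟨reflIso Q z hz3 * reflIso Q (z + y) e1 * reflIso Q (z + w) e2 * reflIso Q (z + y + w) e3,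
    mul_mem (mul_mem (mul_mem (refl_mem_R Q _ _) (refl_mem_R Q _ _)) (refl_mem_R Q _ _))
      (refl_mem_R Q _ _), fun s => ?_⟩
  have hzy : B z y = 0 := by rw [B_comm]; exact hz1
  have hzw : B z w = 0 := by rw [B_comm]; exact hz2
  have hwy : B w y = 0 := by rw [B_comm]; exact hyw
  have hzz := B_self Q z
  have hyy := B_self Q y
  have hww := B_self Q w
  simp only [act_mul, act_refl, B_add_left, B_add_right, QuadraticMap.polar_smul_right, hz1, hz2,
    hyw, hzy, hzw, hwy, hzz, hyy, hww, add_zero, smul_zero, zero_add]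
  rcases zero_or_one (B z s) with h1 | h1 <;> rcases zero_or_one (B y s) with h2 | h2 <;>
    rcases zero_or_one (B w s) with h3 | h3 <;> simp only [h1, h2, h3] <;> funext i <;>
    simp only [Pi.add_apply, Pi.smul_apply, smul_eq_mul] <;>
    generalize s i = a <;> generalize z i = b <;> generalize y i = c <;> generalize w i = d <;>
    revert a b c d <;> decide

/-- The fixed space grows. -/
theorem step (hQ : ∀ u, (∀ v, B u v = 0) → u = 0) (h5 : 5 ≤ Fintype.card ι)
    (g : Cfsg.isometryGroup (ZMod 2) (⇑Q)) (hg : g ≠ 1) :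
    ∃ r ∈ R Q, (∀ s, act Q g s = s → act Q (r * g) s = s) ∧
      ∃ x, act Q g x ≠ x ∧ act Q (r * g) x = x := by
  have key : ∀ s x, act Q g s = s → B (act Q g x + x) s = 0 := by
    intro s x hs
    rw [B_add_left]
    nth_rewrite 1 [← hs]
    rw [act_B, add_self]
  by_cases hsing : ∃ x, Q (act Q g x + x) ≠ 0
  · obtain ⟨x, hx⟩ := hsing
    refine ⟨reflIso Q _ hx, refl_mem_R Q _ _, fun s hs => ?_, x, ?_, ?_⟩
    · rw [act_mul, act_refl, hs, key s x hs, zero_smul, add_zero]
    · intro h
      rw [h, vadd_self, QuadraticMap.map_zero] at hx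
      exact hx rfl
    · have h1 : B (act Q g x) x = 1 := by
        rw [QuadraticMap.map_add Q, act_Q, add_self, zero_add] at hx
        exact eq_one_of_ne_zero hx
      rw [act_mul, act_refl, B_add_left, B_self, zero_add, B_comm, h1, one_smul,
        ← add_assoc, vadd_self, zero_add]
  · push Not at hsing
    have halt : ∀ x, B (act Q g x) x = 0 := by
      intro x
      have := hsing x
      rwa [QuadraticMap.map_add Q, act_Q, add_self, zero_add] at this
    have halt2 : ∀ x z, B (act Q g x + x) z = B (act Q g z + z) x := by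
      intro x z
      have h := halt (x + z)
      rw [act_add, B_add_left, B_add_right, B_add_right, halt, halt, zero_add, add_zero] at h
      rw [B_add_left, B_add_left, B_comm Q z x]
      congr 1
      have h2 : B (act Q g x) z = - B (act Q g z) x := eq_neg_of_add_eq_zero_left h
      rw [h2, CharTwo.neg_eq]
    obtain ⟨x, hx⟩ : ∃ x, act Q g x ≠ x := by
      by_contra h
      push Not at h
      exact hg (act_ext Q fun x => by rw [h, act_one])
    have hy0 : act Q g x + x ≠ 0 := by
      intro h
      apply hx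
      have := eq_neg_of_add_eq_zero_left h
      rw [this]
      funext i
      exact CharTwo.neg_eq (x i)
    obtain ⟨z, hz⟩ : ∃ z, B (act Q g x + x) z ≠ 0 := by
      by_contra h
      push Not at h
      exact hy0 (hQ _ h)
    have hz1 : B (act Q g x + x) z = 1 := eq_one_of_ne_zero hz
    have hz2 : B (act Q g z + z) x = 1 := by rw [← halt2]; exact hz1
    have hyw : B (act Q g x + x) (act Q g z + z) = 0 := by
      have h1 := hsing (x + z)
      have h2 : act Q g (x + z) + (x + z) = (act Q g x + x) + (act Q g z + z) := by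
        rw [act_add]; abel
      rw [h2, QuadraticMap.map_add Q, hsing, hsing, zero_add, zero_add] at h1
      exact h1
    obtain ⟨r, hr, hact⟩ := siegel_mem hQ h5 _ _ (hsing x) (hsing z) hyw
    refine ⟨r, hr, fun s hs => ?_, x, hx, ?_⟩
    · rw [act_mul, hact, hs, key s x hs, key s z hs, zero_smul, zero_smul, add_zero, add_zero]
    · have e1 : B (act Q g x + x) (act Q g x) = 0 := by
        rw [B_add_left, B_self, zero_add, B_comm]; exact halt x
      have e2 : B (act Q g z + z) (act Q g x) = 1 := by
        rw [B_add_left, act_B, B_comm Q z x, add_comm, B_comm Q z, B_comm Q x z]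
        rw [B_add_left, B_comm Q x z] at hz1
        exact hz1
      rw [act_mul, hact, e1, e2, zero_smul, add_zero, one_smul, ← add_assoc, vadd_self, zero_add]

/-- The isometry group is generated by the transvections. -/
theorem R_eq_top (hQ : ∀ u, (∀ v, B u v = 0) → u = 0) (h5 : 5 ≤ Fintype.card ι) : R Q = ⊤ := by
  classical
  rw [eq_top_iff]
  intro g _
  induction hn : (Finset.univ.filter fun x => act Q g x ≠ x).card using Nat.strong_induction_on
    generalizing g with
  | _ n ih =>
    by_cases hg : g = 1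
    · rw [hg]; exact one_mem _
    · obtain ⟨r, hr, h1, x, hx1, hx2⟩ := step hQ h5 g hg
      have hlt : (Finset.univ.filter fun x => act Q (r * g) x ≠ x).card < n := by
        rw [← hn]
        apply Finset.card_lt_card
        rw [Finset.ssubset_iff_of_subset]
        · exact ⟨x, by simpa using hx1, by simpa using hx2⟩
        · intro s hs
          simp only [Finset.mem_filter, Finset.mem_univ, true_and] at hs ⊢
          exact fun h => hs (h1 s h)
      have := ih _ hlt (Subgroup.mem_top (r * g)) rfl
      exact (Subgroup.mul_mem_cancel_left _ hr).1 this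

/-- Two non-singular vectors are conjugate. -/
theorem exists_map (hQ : ∀ u, (∀ v, B u v = 0) → u = 0) (h5 : 5 ≤ Fintype.card ι)
    (v w : ι → ZMod 2) (hv : Q v ≠ 0) (hw : Q w ≠ 0) :
    ∃ g : Cfsg.isometryGroup (ZMod 2) (⇑Q), act Q g v = w := by
  have h1 : ∀ v w : ι → ZMod 2, Q v ≠ 0 → Q w ≠ 0 → B v w ≠ 0 →
      ∃ g : Cfsg.isometryGroup (ZMod 2) (⇑Q), act Q g v = w := by
    intro v w hv hw hvw
    have hv1 := eq_one_of_ne_zero hv
    have hw1 := eq_one_of_ne_zero hw
    have hvw1 := eq_one_of_ne_zero hvw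
    have hs : Q (v + w) ≠ 0 := by
      rw [QuadraticMap.map_add Q, hv1, hw1, hvw1]; decide
    refine ⟨reflIso Q _ hs, ?_⟩
    rw [act_refl, B_add_left, B_self, zero_add, B_comm, hvw1, one_smul, ← add_assoc, vadd_self,
      zero_add]
  by_cases hvw : B v w = 0
  · by_cases he : v = w
    · exact ⟨1, by rw [act_one, he]⟩
    · -- a vector with `B u v = B u w = 1`
      have hv1 := eq_one_of_ne_zero hv
      have hw1 := eq_one_of_ne_zero hw
      have hv0 : v ≠ 0 := by rintro rfl; exact hv (QuadraticMap.map_zero Q)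
      have hw0 : w ≠ 0 := by rintro rfl; exact hw (QuadraticMap.map_zero Q)
      have hvw0 : v + w ≠ 0 := by
        intro h
        apply he
        have := eq_neg_of_add_eq_zero_left h
        rw [this]
        funext i
        exact CharTwo.neg_eq (w i)
      have ex : ∀ a : ι → ZMod 2, a ≠ 0 → ∃ b, B a b = 1 := by
        intro a ha
        by_contra h
        push Not at h
        exact ha (hQ a fun b => (zero_or_one _).resolve_right (h b))
      have hu : ∃ u, B v u = 1 ∧ B w u = 1 := by
        obtain ⟨a, ha⟩ := ex v hv0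
        obtain ⟨b, hb⟩ := ex w hw0
        obtain ⟨c, hc⟩ := ex (v + w) hvw0
        rw [B_add_left] at hc
        rcases zero_or_one (B w a) with h1 | h1
        · rcases zero_or_one (B v b) with h2 | h2
          · exact ⟨a + b, by rw [B_add_right, ha, h2]; decide, by rw [B_add_right, h1, hb]; decide⟩
          · exact ⟨b, h2, hb⟩
        · exact ⟨a, ha, h1⟩
      obtain ⟨u0, hu1, hu2⟩ := hu
      have hu : ∃ u, B v u = 1 ∧ B w u = 1 ∧ Q u ≠ 0 := by
        by_cases h0 : Q u0 = 0
        · obtain ⟨k, hk1, hk2, hk3⟩ := exists_avoid hQ h5 v w u0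
          refine ⟨u0 + k, by rw [B_add_right, hk1, hu1]; decide,
            by rw [B_add_right, hk2, hu2]; decide, ?_⟩
          rw [QuadraticMap.map_add Q, h0, zero_add]
          intro h
          apply hk3
          have := eq_neg_of_add_eq_zero_left h
          rw [this, CharTwo.neg_eq]
        · exact ⟨u0, hu1, hu2, h0⟩
      obtain ⟨u, hu1, hu2, hu3⟩ := hu
      obtain ⟨g1, hg1⟩ := h1 v u hv hu3 (by rw [hu1]; decide)
      obtain ⟨g2, hg2⟩ := h1 u w hu3 hw (by rw [B_comm, hu2]; decide)
      exact ⟨g2 * g1, by rw [act_mul, hg1, hg2]⟩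
  · exact h1 v w hv hw hvw

/-- The isometries `g` with `g - 1` of rank one are the transvections. -/
theorem rank_one_iff (hQ : ∀ u, (∀ v, B u v = 0) → u = 0)
    (g : Cfsg.isometryGroup (ZMod 2) (⇑Q)) :
    (((g : Matrix.GeneralLinearGroup ι (ZMod 2)) : Matrix ι ι (ZMod 2)) - 1).rank = 1 ↔
      ∃ (v : ι → ZMod 2) (hv : Q v ≠ 0), g = reflIso Q v hv := by
  constructor
  · intro h
    obtain ⟨a, b, ha, hb, hab⟩ := exists_vecMulVec_of_rank_eq_one _ h
    have hact : ∀ x, act Q g x = x + (b ⬝ᵥ x) • a := by
      intro x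
      have h1 : ((g : Matrix.GeneralLinearGroup ι (ZMod 2)) : Matrix ι ι (ZMod 2))
          = 1 + Matrix.vecMulVec a b := by rw [← hab]; abel
      rw [act_def, h1, Matrix.add_mulVec, Matrix.one_mulVec, Matrix.vecMulVec_mulVec]
      simp [op_smul_eq_smul]
    have hq : ∀ x, b ⬝ᵥ x = 1 → B a x = Q a := by
      intro x hx
      have h1 := act_Q Q g x
      rw [hact, hx, one_smul, QuadraticMap.map_add Q, B_comm] at h1
      have h2 : Q a + B a x = 0 := by
        rw [add_assoc] at h1
        simpa using h1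
      have := eq_neg_of_add_eq_zero_left h2
      rw [this, CharTwo.neg_eq]
    obtain ⟨x0, hx0⟩ : ∃ x, b ⬝ᵥ x = 1 := by
      obtain ⟨i, hi⟩ := Function.ne_iff.1 hb
      refine ⟨Pi.single i 1, ?_⟩
      rw [dotProduct_single, mul_one]
      exact eq_one_of_ne_zero hi
    have hq0 : ∀ x, b ⬝ᵥ x = 0 → B a x = 0 := by
      intro x hx
      have h1 := hq (x0 + x) (by rw [dotProduct_add, hx0, hx, add_zero])
      rw [B_add_right, hq x0 hx0] at h1
      simpa using h1
    have hQa : Q a ≠ 0 := by
      intro h0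
      apply ha
      apply hQ
      intro x
      rcases zero_or_one (b ⬝ᵥ x) with hx | hx
      · exact hq0 x hx
      · rw [hq x hx, h0]
    refine ⟨a, hQa, act_ext Q fun x => ?_⟩
    rw [hact, act_refl]
    congr 2
    rcases zero_or_one (b ⬝ᵥ x) with hx | hx
    · rw [hx, hq0 x hx]
    · rw [hx, hq x hx, eq_one_of_ne_zero hQa]
  · rintro ⟨v, hv, rfl⟩
    rw [coe_reflIso, reflectionMatrix_def, eq_one_of_ne_zero hv, inv_one, one_smul]
    have h1 : (1 - Matrix.vecMulVec v (Cfsg.polarVec (⇑Q) v) - 1 : Matrix ι ι (ZMod 2))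
        = Matrix.vecMulVec v (Cfsg.polarVec (⇑Q) v) := by
      ext i j
      simp only [Matrix.sub_apply]
      generalize (1 : Matrix ι ι (ZMod 2)) i j = a
      generalize Matrix.vecMulVec v (Cfsg.polarVec (⇑Q) v) i j = b
      revert a b; decide
    rw [h1]
    apply le_antisymm (Matrix.rank_vecMulVec_le _ _)
    rw [Nat.one_le_iff_ne_zero]
    intro h0
    have hv0 : v ≠ 0 := by rintro rfl; exact hv (QuadraticMap.map_zero Q)
    apply hv0
    apply hQ
    intro x
    have h2 : ∀ x, Matrix.vecMulVec v (Cfsg.polarVec (⇑Q) v) *ᵥ x = 0 := by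
      rw [Matrix.rank, Submodule.finrank_eq_zero] at h0
      intro x
      have : Matrix.vecMulVec v (Cfsg.polarVec (⇑Q) v) *ᵥ x ∈
          LinearMap.range (Matrix.vecMulVec v (Cfsg.polarVec (⇑Q) v)).mulVecLin := ⟨x, rfl⟩
      rw [h0] at this
      simpa using this
    have h3 := h2 x
    rw [Matrix.vecMulVec_mulVec, polarVec_dotProduct] at h3
    rcases zero_or_one (B v x) with h4 | h4
    · exact h4
    · rw [h4] at h3
      simp at h3
      exact absurd h3 hv0

theorem conj_refl (g : Cfsg.isometryGroup (ZMod 2) (⇑Q)) (v : ι → ZMod 2) (hv : Q v ≠ 0)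
    (hgv : Q (act Q g v) ≠ 0) :
    g * reflIso Q v hv * g⁻¹ = reflIso Q (act Q g v) hgv := conj_reflIso Q v hv g hgv

/-- **Main result**: the rank-one isometries form a generating class of 3-transpositions. -/
theorem isThreeTranspositionClass (hQ : ∀ u, (∀ v, B u v = 0) → u = 0)
    (h5 : 5 ≤ Fintype.card ι) :
    Cfsg.IsThreeTranspositionClass {g : ↥(Cfsg.isometryGroup (ZMod 2) (⇑Q)) |
      (((g : Matrix.GeneralLinearGroup ι (ZMod 2)) : Matrix ι ι (ZMod 2)) - 1).rank = 1} := by
  have hset : {g : ↥(Cfsg.isometryGroup (ZMod 2) (⇑Q)) |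
      (((g : Matrix.GeneralLinearGroup ι (ZMod 2)) : Matrix ι ι (ZMod 2)) - 1).rank = 1}
      = {g | ∃ (v : ι → ZMod 2) (hv : Q v ≠ 0), g = reflIso Q v hv} := by
    ext g
    exact rank_one_iff hQ g
  rw [hset]
  have hne1 : ∀ (v : ι → ZMod 2) (hv : Q v ≠ 0), reflIso Q v hv ≠ 1 := by
    intro v hv h
    have hv0 : v ≠ 0 := by rintro rfl; exact hv (QuadraticMap.map_zero Q)
    apply hv0
    apply hQ
    intro x
    have h1 := act_refl Q v hv x
    rw [h, act_one] at h1
    rcases zero_or_one (B v x) with h4 | h4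
    · exact h4
    · rw [h4, one_smul] at h1
      have : v = 0 := by simpa using h1
      exact absurd this hv0
  refine ⟨⟨?_, ?_⟩, ?_, R_eq_top hQ h5⟩
  · rintro d ⟨v, hv, rfl⟩
    rw [orderOf_eq_prime_iff, pow_two]
    exact ⟨reflIso_mul_self Q v hv, hne1 v hv⟩
  · rintro d ⟨v, hv, rfl⟩ e ⟨w, hw, rfl⟩
    rcases zero_or_one (B v w) with h | h
    · left
      apply act_ext
      intro x
      have h' : B w v = 0 := by rw [B_comm]; exact h
      have hvv := B_self Q v
      have hww := B_self Q w
      simp only [pow_two, act_mul, act_one, act_refl, B_add_left, B_add_right,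
        QuadraticMap.polar_smul_right, h, h', hvv, hww, smul_zero, add_zero]
      rcases zero_or_one (B v x) with h1 | h1 <;> rcases zero_or_one (B w x) with h2 | h2 <;>
        simp only [h1, h2] <;> funext i <;>
        simp only [Pi.add_apply, Pi.smul_apply, smul_eq_mul] <;>
        generalize x i = a <;> generalize v i = b <;> generalize w i = c <;>
        revert a b c <;> decide
    · right
      apply act_ext
      intro x
      have h' : B w v = 1 := by rw [B_comm]; exact h
      have hvv := B_self Q v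
      have hww := B_self Q w
      simp only [pow_succ, pow_zero, one_mul, act_mul, act_one, act_refl, B_add_left, B_add_right,
        QuadraticMap.polar_smul_right, h, h', hvv, hww, smul_zero, add_zero, smul_eq_mul, mul_one,
        mul_zero]
      rcases zero_or_one (B v x) with h1 | h1 <;> rcases zero_or_one (B w x) with h2 | h2 <;>
        simp only [h1, h2] <;> funext i <;>
        simp only [Pi.add_apply, Pi.smul_apply, smul_eq_mul] <;>
        generalize x i = a <;> generalize v i = b <;> generalize w i = c <;>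
        revert a b c <;> decide
  · obtain ⟨k, -, -, hk⟩ := exists_avoid hQ h5 0 0 0
    rw [QuadraticMap.polar_zero_left] at hk
    refine ⟨reflIso Q k hk, ⟨k, hk, rfl⟩, ?_⟩
    ext g
    show _ ↔ IsConj _ _
    rw [isConj_iff]
    constructor
    · rintro ⟨v, hv, rfl⟩
      obtain ⟨g, hg⟩ := exists_map hQ h5 k v hk hv
      refine ⟨g, ?_⟩
      subst hg
      exact conj_refl g k hk hv
    · rintro ⟨c, rfl⟩
      have hc : Q (act Q c k) ≠ 0 := by rw [act_Q]; exact hk
      exact ⟨act Q c k, hc, conj_refl c k hk hc⟩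

end Cfsg.Agent.SporadicStructure.OrthTwo
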