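import Mathlib
import Cfsg.Prelude.Def_SporadicCombinatorics
import Cfsg.Agent.SporadicA.Dodecad
set_option linter.all false

-- part: SporadicStructure/Quartet
section
/-!
Quartets in a Steiner system S(5,6,12) living on a twelve-element finset `d`: two disjoint triples
whose union is a block extend to exactly one quartet, and there are exactly 220 quartets.
-/

set_option autoImplicit false

namespace Cfsg.Agent.SporadicStructure.Quartet

open Finset

variable {α : Type*} [DecidableEq α]

/-- A Steiner system S(5,6,12) on the finset `d`, with blocks `H`, closed under complements. -/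
structure Hex (d : Finset α) (H : Set (Finset α)) : Prop where
  card_d : d.card = 12
  sub : ∀ h ∈ H, h ⊆ d
  card : ∀ h ∈ H, h.card = 6
  ex : ∀ s : Finset α, s ⊆ d → s.card = 5 → ∃ h ∈ H, s ⊆ h
  uniq : ∀ h ∈ H, ∀ h' ∈ H, ∀ s : Finset α, s.card = 5 → s ⊆ h → s ⊆ h' → h = h'
  compl : ∀ h ∈ H, d \ h ∈ H

/-- The quartets of the system. -/
def quart (d : Finset α) (H : Set (Finset α)) : Set (Finset (Finset α)) :=
  {Q | Q.card = 4 ∧ (∀ t ∈ Q, t.card = 3 ∧ t ⊆ d) ∧ ∀ t ∈ Q, ∀ u ∈ Q, t ≠ u → t ∪ u ∈ H}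

theorem eq_of_union_eq {t l l' : Finset α} (h : Disjoint t l) (h' : Disjoint t l')
    (e : t ∪ l = t ∪ l') : l = l' := by
  have h1 : (t ∪ l) \ t = l := Finset.union_sdiff_cancel_left h
  have h2 : (t ∪ l') \ t = l' := Finset.union_sdiff_cancel_left h'
  rw [← h1, e, h2]

theorem line_unique {d : Finset α} {H : Set (Finset α)} (hH : Hex d H) {t l l' : Finset α}
    (ht : t.card = 3) (htl : Disjoint t l) (htl' : Disjoint t l')
    (h : t ∪ l ∈ H) (h' : t ∪ l' ∈ H) {x y : α} (hxy : x ≠ y) (hx : x ∈ l) (hy : y ∈ l)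
    (hx' : x ∈ l') (hy' : y ∈ l') : l = l' := by
  refine eq_of_union_eq htl htl' (hH.uniq _ h _ h' (t ∪ {x, y}) ?_ ?_ ?_)
  · rw [Finset.card_union_of_disjoint, ht, Finset.card_pair hxy]
    refine htl.mono_right ?_
    intro z hz
    rcases Finset.mem_insert.1 hz with rfl | hz
    · exact hx
    · rw [Finset.mem_singleton.1 hz]; exact hy
  · refine Finset.union_subset_union_right ?_
    intro z hz
    rcases Finset.mem_insert.1 hz with rfl | hz
    · exact hx
    · rw [Finset.mem_singleton.1 hz]; exact hy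
  · refine Finset.union_subset_union_right ?_
    intro z hz
    rcases Finset.mem_insert.1 hz with rfl | hz
    · exact hx'
    · rw [Finset.mem_singleton.1 hz]; exact hy'

theorem exists_line {d : Finset α} {H : Set (Finset α)} (hH : Hex d H) {t : Finset α}
    (ht : t.card = 3) (htd : t ⊆ d) {x y : α} (hx : x ∈ d \ t) (hy : y ∈ d \ t) (hxy : x ≠ y) :
    ∃ l : Finset α, l.card = 3 ∧ Disjoint t l ∧ t ∪ l ∈ H ∧ x ∈ l ∧ y ∈ l := by
  rw [Finset.mem_sdiff] at hx hy
  obtain ⟨h, hh, hs⟩ := hH.ex (t ∪ {x, y})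
    (by
      refine Finset.union_subset htd ?_
      intro z hz
      rcases Finset.mem_insert.1 hz with rfl | hz
      · exact hx.1
      · rw [Finset.mem_singleton.1 hz]; exact hy.1)
    (by
      rw [Finset.card_union_of_disjoint, ht, Finset.card_pair hxy]
      rw [Finset.disjoint_right]
      intro z hz
      rcases Finset.mem_insert.1 hz with rfl | hz
      · exact hx.2
      · rw [Finset.mem_singleton.1 hz]; exact hy.2)
  have hth : t ⊆ h := Finset.union_subset_left hs
  refine ⟨h \ t, ?_, Finset.disjoint_sdiff, ?_, ?_, ?_⟩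
  · rw [Finset.card_sdiff_of_subset hth, hH.card h hh, ht]
  · rw [Finset.union_sdiff_of_subset hth]; exact hh
  · exact Finset.mem_sdiff.2 ⟨hs (by simp), hx.2⟩
  · exact Finset.mem_sdiff.2 ⟨hs (by simp), hy.2⟩

/-- Through a point `x` outside `t ∪ u` there is exactly one line (of the affine plane on
`d \ t`) parallel to `u`. -/
theorem exists_unique_parallel {d : Finset α} {H : Set (Finset α)} (hH : Hex d H)
    {t u : Finset α} (ht : t.card = 3) (hu : u.card = 3) (htu : Disjoint t u) (h : t ∪ u ∈ H)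
    {x : α} (hx : x ∈ d \ (t ∪ u)) :
    ∃! l : Finset α, l.card = 3 ∧ Disjoint t l ∧ Disjoint u l ∧ t ∪ l ∈ H ∧ x ∈ l := by
  have hsub := hH.sub _ h
  have htd : t ⊆ d := Finset.union_subset_left hsub
  have hud : u ⊆ d := Finset.union_subset_right hsub
  rw [Finset.mem_sdiff, Finset.mem_union, not_or] at hx
  obtain ⟨hxd, hxt, hxu⟩ := hx
  have hxA : x ∈ d \ t := Finset.mem_sdiff.2 ⟨hxd, hxt⟩
  have hline : ∀ y : α, ∃ l : Finset α, y ∈ (d \ t).erase x →
      (l.card = 3 ∧ Disjoint t l ∧ t ∪ l ∈ H ∧ x ∈ l ∧ y ∈ l) := by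
    intro y
    by_cases hy : y ∈ (d \ t).erase x
    · obtain ⟨l, hl⟩ := exists_line hH ht htd hxA (Finset.mem_of_mem_erase hy)
        (Finset.ne_of_mem_erase hy).symm
      exact ⟨l, fun _ => hl⟩
    · exact ⟨∅, fun h => absurd h hy⟩
  choose L hL using hline
  have huA : ∀ y ∈ u, y ∈ (d \ t).erase x := by
    intro y hy
    refine Finset.mem_erase.2 ⟨?_, Finset.mem_sdiff.2 ⟨hud hy, ?_⟩⟩
    · rintro rfl; exact hxu hy
    · exact Finset.disjoint_right.1 htu hy
  have hcardA : ((d \ t).erase x).card = 8 := by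
    rw [Finset.card_erase_of_mem hxA, Finset.card_sdiff_of_subset htd, hH.card_d, ht]
  have hLsub : ∀ y ∈ (d \ t).erase x, (L y).erase x ⊆ (d \ t).erase x := by
    intro y hy z hz
    obtain ⟨_, h2, h3, _, _⟩ := hL y hy
    rw [Finset.mem_erase] at hz ⊢
    refine ⟨hz.1, Finset.mem_sdiff.2 ⟨hH.sub _ h3 (Finset.mem_union_right _ hz.2), ?_⟩⟩
    exact Finset.disjoint_right.1 h2 hz.2
  set U : Finset α := u.biUnion fun y => (L y).erase x with hU
  have hUsub : U ⊆ (d \ t).erase x := by
    intro z hz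
    obtain ⟨y, hy, hz⟩ := Finset.mem_biUnion.1 hz
    exact hLsub y (huA y hy) hz
  have hUcard : U.card = 6 := by
    rw [hU, Finset.card_biUnion]
    · have : ∀ y ∈ u, ((L y).erase x).card = 2 := by
        intro y hy
        obtain ⟨h1, _, _, h4, _⟩ := hL y (huA y hy)
        rw [Finset.card_erase_of_mem h4, h1]
      rw [Finset.sum_congr rfl this, Finset.sum_const, hu]
      rfl
    · intro y hy y' hy' hyy'
      show Disjoint ((L y).erase x) ((L y').erase x)
      rw [Finset.disjoint_left]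
      intro z hz hz'
      rw [Finset.mem_erase] at hz hz'
      obtain ⟨_, a2, a3, a4, a5⟩ := hL y (huA y hy)
      obtain ⟨_, b2, b3, b4, b5⟩ := hL y' (huA y' hy')
      have e := line_unique hH ht a2 b2 a3 b3 (Ne.symm hz.1) a4 hz.2 b4 hz'.2
      have e' := line_unique hH ht a2 htu a3 h hyy' a5 (e ▸ b5) hy hy'
      rw [e'] at a4
      exact hxu a4
  set Z : Finset α := (d \ t).erase x \ U with hZ
  have hZcard : Z.card = 2 := by
    rw [hZ, Finset.card_sdiff_of_subset hUsub, hcardA, hUcard]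
  have huniq : ∀ l : Finset α,
      (l.card = 3 ∧ Disjoint t l ∧ Disjoint u l ∧ t ∪ l ∈ H ∧ x ∈ l) → l = insert x Z := by
    rintro l ⟨h1, h2, h3, h4, h5⟩
    have hlZ : l.erase x ⊆ Z := by
      intro z hz
      rw [Finset.mem_erase] at hz
      refine Finset.mem_sdiff.2 ⟨?_, ?_⟩
      · rw [Finset.mem_erase, Finset.mem_sdiff]
        exact ⟨hz.1, hH.sub _ h4 (Finset.mem_union_right _ hz.2),
          Finset.disjoint_right.1 h2 hz.2⟩
      · intro hzU
        obtain ⟨y, hy, hzy⟩ := Finset.mem_biUnion.1 hzU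
        rw [Finset.mem_erase] at hzy
        obtain ⟨_, a2, a3, a4, a5⟩ := hL y (huA y hy)
        have e := line_unique hH ht h2 a2 h4 a3 (Ne.symm hz.1) h5 hz.2 a4 hzy.2
        rw [← e] at a5
        exact Finset.disjoint_left.1 h3 hy a5
    have heq : l.erase x = Z := by
      refine Finset.eq_of_subset_of_card_le hlZ ?_
      rw [hZcard, Finset.card_erase_of_mem h5, h1]
    rw [← heq, Finset.insert_erase h5]
  have hne : Z.Nonempty := by
    rw [← Finset.card_pos, hZcard]; norm_num
  obtain ⟨z, hz⟩ := hne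
  obtain ⟨hzA, hzU⟩ := Finset.mem_sdiff.1 hz
  obtain ⟨a1, a2, a3, a4, a5⟩ := hL z hzA
  refine ⟨L z, ⟨a1, a2, ?_, a3, a4⟩, ?_⟩
  · rw [Finset.disjoint_left]
    intro y hy hyL
    apply hzU
    obtain ⟨b1, b2, b3, b4, b5⟩ := hL y (huA y hy)
    have hyx : x ≠ y := (Finset.ne_of_mem_erase (huA y hy)).symm
    have e := line_unique hH ht a2 b2 a3 b3 hyx a4 hyL b4 b5
    refine Finset.mem_biUnion.2 ⟨y, hy, ?_⟩
    rw [Finset.mem_erase]
    exact ⟨Finset.ne_of_mem_erase hzA, e ▸ a5⟩
  · intro l hl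
    have hz2 : L z = insert x Z := by
      apply huniq
      refine ⟨a1, a2, ?_, a3, a4⟩
      rw [Finset.disjoint_left]
      intro y hy hyL
      apply hzU
      obtain ⟨b1, b2, b3, b4, b5⟩ := hL y (huA y hy)
      have hyx : x ≠ y := (Finset.ne_of_mem_erase (huA y hy)).symm
      have e := line_unique hH ht a2 b2 a3 b3 hyx a4 hyL b4 b5
      refine Finset.mem_biUnion.2 ⟨y, hy, ?_⟩
      rw [Finset.mem_erase]
      exact ⟨Finset.ne_of_mem_erase hzA, e ▸ a5⟩
    rw [huniq l hl, hz2]

theorem disjoint_of_union_mem {d : Finset α} {H : Set (Finset α)} (hH : Hex d H)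
    {t u : Finset α} (ht : t.card = 3) (hu : u.card = 3) (h : t ∪ u ∈ H) : Disjoint t u := by
  have h6 := hH.card _ h
  rw [← Finset.card_union_eq_card_add_card, h6, ht, hu]

/-- Two disjoint triples whose union is a block lie in exactly one quartet. -/
theorem exists_unique_quartet {d : Finset α} {H : Set (Finset α)} (hH : Hex d H)
    {t u : Finset α} (ht : t.card = 3) (hu : u.card = 3) (htu : Disjoint t u) (h : t ∪ u ∈ H) :
    ∃! Q : Finset (Finset α), Q ∈ quart d H ∧ t ∈ Q ∧ u ∈ Q := by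
  have hsub := hH.sub _ h
  have htd : t ⊆ d := Finset.union_subset_left hsub
  have hud : u ⊆ d := Finset.union_subset_right hsub
  have hrcard : (d \ (t ∪ u)).card = 6 := hH.card _ (hH.compl _ h)
  obtain ⟨x, hx⟩ : (d \ (t ∪ u)).Nonempty := by
    rw [← Finset.card_pos, hrcard]; norm_num
  obtain ⟨v, ⟨v1, v2, v3, v4, v5⟩, -⟩ := exists_unique_parallel hH ht hu htu h hx
  have hvd : v ⊆ d := Finset.union_subset_right (hH.sub _ v4)
  have hvr : v ⊆ d \ (t ∪ u) := by
    intro z hz
    rw [Finset.mem_sdiff, Finset.mem_union, not_or]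
    exact ⟨hvd hz, Finset.disjoint_right.1 v2 hz, Finset.disjoint_right.1 v3 hz⟩
  obtain ⟨y, hy⟩ : ((d \ (t ∪ u)) \ v).Nonempty := by
    rw [← Finset.card_pos, Finset.card_sdiff_of_subset hvr, hrcard, v1]; norm_num
  obtain ⟨hyr, hyv⟩ := Finset.mem_sdiff.1 hy
  obtain ⟨w, ⟨w1, w2, w3, w4, w5⟩, -⟩ := exists_unique_parallel hH ht hu htu h hyr
  have hwd : w ⊆ d := Finset.union_subset_right (hH.sub _ w4)
  have hwr : w ⊆ d \ (t ∪ u) := by
    intro z hz
    rw [Finset.mem_sdiff, Finset.mem_union, not_or]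
    exact ⟨hwd hz, Finset.disjoint_right.1 w2 hz, Finset.disjoint_right.1 w3 hz⟩
  have hvw : Disjoint v w := by
    rw [Finset.disjoint_left]
    intro z hz hz'
    have e := (exists_unique_parallel hH ht hu htu h (hvr hz)).unique
      ⟨v1, v2, v3, v4, hz⟩ ⟨w1, w2, w3, w4, hz'⟩
    rw [e] at hyv
    exact hyv w5
  -- the rest of `d`
  have hvwr : v ∪ w = d \ (t ∪ u) := by
    refine Finset.eq_of_subset_of_card_le (Finset.union_subset hvr hwr) ?_
    rw [hrcard, Finset.card_union_of_disjoint hvw, v1, w1]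
  have hvwH : v ∪ w ∈ H := by rw [hvwr]; exact hH.compl _ h
  have key : ∀ {a b c e : Finset α}, a ∪ b ∈ H → c ∪ e ⊆ d → Disjoint (a ∪ b) (c ∪ e) →
      (c ∪ e).card = 6 → c ∪ e ∈ H := by
    intro a b c e hab hce hdis hcard
    have : c ∪ e = d \ (a ∪ b) := by
      refine Finset.eq_of_subset_of_card_le ?_ ?_
      · intro z hz
        exact Finset.mem_sdiff.2 ⟨hce hz, Finset.disjoint_right.1 hdis hz⟩
      · rw [hcard, hH.card _ (hH.compl _ hab)]
    rw [this]
    exact hH.compl _ hab
  have huw : u ∪ w ∈ H := by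
    refine key v4 (Finset.union_subset hud hwd) ?_ ?_
    · rw [Finset.disjoint_union_left, Finset.disjoint_union_right, Finset.disjoint_union_right]
      exact ⟨⟨htu, w2⟩, v3.symm, hvw⟩
    · rw [Finset.card_union_of_disjoint w3, hu, w1]
  have huv : u ∪ v ∈ H := by
    refine key w4 (Finset.union_subset hud hvd) ?_ ?_
    · rw [Finset.disjoint_union_left, Finset.disjoint_union_right, Finset.disjoint_union_right]
      exact ⟨⟨htu, v2⟩, w3.symm, hvw.symm⟩
    · rw [Finset.card_union_of_disjoint v3, hu, v1]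
  have nonempty_of {a : Finset α} (ha : a.card = 3) : a.Nonempty := by
    rw [← Finset.card_pos, ha]; norm_num
  have ne_of {a b : Finset α} (ha : a.card = 3) (hab : Disjoint a b) : a ≠ b := by
    rintro rfl
    obtain ⟨z, hz⟩ := nonempty_of ha
    exact Finset.disjoint_left.1 hab hz hz
  have n1 := ne_of ht htu
  have n2 := ne_of ht v2
  have n3 := ne_of ht w2
  have n4 := ne_of hu v3
  have n5 := ne_of hu w3
  have n6 := ne_of v1 hvw
  have hcard4 : ({t, u, v, w} : Finset (Finset α)).card = 4 := by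
    rw [Finset.card_insert_of_notMem, Finset.card_insert_of_notMem, Finset.card_pair n6]
    · simp only [Finset.mem_insert, Finset.mem_singleton, not_or]; exact ⟨n4, n5⟩
    · simp only [Finset.mem_insert, Finset.mem_singleton, not_or]; exact ⟨n1, n2, n3⟩
  refine ⟨{t, u, v, w}, ⟨⟨hcard4, ?_, ?_⟩, by simp, by simp⟩, ?_⟩
  · intro a ha
    simp only [Finset.mem_insert, Finset.mem_singleton] at ha
    rcases ha with rfl | rfl | rfl | rfl
    · exact ⟨ht, htd⟩
    · exact ⟨hu, hud⟩
    · exact ⟨v1, hvd⟩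
    · exact ⟨w1, hwd⟩
  · intro a ha b hb hab
    simp only [Finset.mem_insert, Finset.mem_singleton] at ha hb
    rcases ha with rfl | rfl | rfl | rfl <;> rcases hb with rfl | rfl | rfl | rfl <;>
      first
      | exact absurd rfl hab
      | assumption
      | (rw [Finset.union_comm]; assumption)
  · rintro Q ⟨⟨q1, q2, q3⟩, q4, q5⟩
    -- every other member of `Q` is `v` or `w`
    have hmem : ∀ a ∈ Q, a ∈ ({t, u, v, w} : Finset (Finset α)) := by
      intro a ha
      simp only [Finset.mem_insert, Finset.mem_singleton]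
      by_cases hat : a = t
      · exact Or.inl hat
      by_cases hau : a = u
      · exact Or.inr (Or.inl hau)
      have hta := q3 t q4 a ha (Ne.symm hat)
      have hua := q3 u q5 a ha (Ne.symm hau)
      have ca := (q2 a ha).1
      have dta := disjoint_of_union_mem hH ht ca hta
      have dua := disjoint_of_union_mem hH hu ca hua
      obtain ⟨z, hz⟩ := nonempty_of ca
      have hzr : z ∈ d \ (t ∪ u) := by
        rw [Finset.mem_sdiff, Finset.mem_union, not_or]
        exact ⟨(q2 a ha).2 hz, Finset.disjoint_right.1 dta hz, Finset.disjoint_right.1 dua hz⟩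
      have hE := exists_unique_parallel hH ht hu htu h hzr
      rw [← hvwr, Finset.mem_union] at hzr
      rcases hzr with hzv | hzw
      · exact Or.inr (Or.inr (Or.inl (hE.unique ⟨ca, dta, dua, hta, hz⟩ ⟨v1, v2, v3, v4, hzv⟩)))
      · exact Or.inr (Or.inr (Or.inr (hE.unique ⟨ca, dta, dua, hta, hz⟩ ⟨w1, w2, w3, w4, hzw⟩)))
    refine Finset.eq_of_subset_of_card_le hmem ?_
    rw [q1, hcard4]

theorem quart_finite {d : Finset α} {H : Set (Finset α)} : (quart d H).Finite := by
  refine Set.Finite.subset (d.powerset.powerset.finite_toSet) ?_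
  intro Q hQ
  rw [Finset.mem_coe, Finset.mem_powerset]
  intro t ht
  exact Finset.mem_powerset.2 (hQ.2.1 t ht).2

theorem blocks_finite {d : Finset α} {H : Set (Finset α)} (hH : Hex d H) : H.Finite := by
  refine Set.Finite.subset (d.powerset.finite_toSet) ?_
  intro h hh
  rw [Finset.mem_coe, Finset.mem_powerset]
  exact hH.sub h hh

/-- There are 132 blocks. -/
theorem card_blocks {d : Finset α} {H : Set (Finset α)} (hH : Hex d H) (F : Finset (Finset α))
    (hF : ∀ h, h ∈ F ↔ h ∈ H) : F.card = 132 := by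
  classical
  have h := Finset.card_mul_eq_card_mul (s := d.powersetCard 5) (t := F)
    (fun s b => s ⊆ b) (m := 1) (n := 6) ?_ ?_
  · rw [Finset.card_powersetCard, hH.card_d] at h
    have h3 : Nat.choose 12 5 = 792 := by decide
    rw [h3] at h
    omega
  · intro s hs
    obtain ⟨hs1, hs2⟩ := Finset.mem_powersetCard.1 hs
    obtain ⟨b, hb, hsb⟩ := hH.ex s hs1 hs2
    rw [Finset.card_eq_one]
    refine ⟨b, ?_⟩
    ext c
    rw [Finset.mem_bipartiteAbove, Finset.mem_singleton, hF]
    constructor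
    · rintro ⟨hc, hsc⟩
      exact hH.uniq c hc b hb s hs2 hsc hsb
    · rintro rfl
      exact ⟨hb, hsb⟩
  · intro b hb
    rw [hF] at hb
    have : Finset.bipartiteBelow (fun s b => s ⊆ b) (d.powersetCard 5) b = b.powersetCard 5 := by
      ext s
      rw [Finset.mem_bipartiteBelow, Finset.mem_powersetCard, Finset.mem_powersetCard]
      constructor
      · rintro ⟨⟨_, h2⟩, h3⟩; exact ⟨h3, h2⟩
      · rintro ⟨h3, h2⟩; exact ⟨⟨h3.trans (hH.sub b hb), h2⟩, h3⟩
    rw [this, Finset.card_powersetCard, hH.card b hb]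
    decide

/-- There are 220 quartets. -/
theorem ncard_quart {d : Finset α} {H : Set (Finset α)} (hH : Hex d H) :
    (quart d H).ncard = 220 := by
  classical
  obtain ⟨F, hF⟩ : ∃ F : Finset (Finset α), ∀ h, h ∈ F ↔ h ∈ H :=
    ⟨(blocks_finite hH).toFinset, fun h => Set.Finite.mem_toFinset _⟩
  obtain ⟨S, hS⟩ : ∃ S : Finset (Finset (Finset α)), ∀ Q, Q ∈ S ↔ Q ∈ quart d H :=
    ⟨quart_finite.toFinset, fun h => Set.Finite.mem_toFinset _⟩
  have hQS : (quart d H).ncard = S.card := by
    rw [← Set.ncard_coe_finset]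
    congr 1
    ext Q
    exact (hS Q).symm
  rw [hQS]
  -- ordered pairs
  set P : Finset (Finset α × Finset α) :=
    (d.powersetCard 3 ×ˢ d.powersetCard 3).filter (fun p => p.1 ∪ p.2 ∈ F) with hP
  have memP : ∀ p : Finset α × Finset α, p ∈ P ↔ p.1.card = 3 ∧ p.2.card = 3 ∧ p.1 ∪ p.2 ∈ H := by
    intro p
    rw [hP, Finset.mem_filter, Finset.mem_product, Finset.mem_powersetCard,
      Finset.mem_powersetCard, hF]
    constructor
    · rintro ⟨⟨⟨_, h2⟩, ⟨_, h4⟩⟩, h5⟩; exact ⟨h2, h4, h5⟩
    · rintro ⟨h2, h4, h5⟩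
      have := hH.sub _ h5
      exact ⟨⟨⟨Finset.union_subset_left this, h2⟩, ⟨Finset.union_subset_right this, h4⟩⟩, h5⟩
  have hPcard : P.card = 2640 := by
    have h := Finset.card_mul_eq_card_mul (s := P) (t := F)
      (fun p b => p.1 ∪ p.2 = b) (m := 1) (n := 20) ?_ ?_
    · rw [card_blocks hH F hF] at h
      omega
    · intro p hp
      rw [memP] at hp
      rw [Finset.card_eq_one]
      refine ⟨p.1 ∪ p.2, ?_⟩
      ext c
      rw [Finset.mem_bipartiteAbove, Finset.mem_singleton, hF]
      constructor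
      · rintro ⟨_, h⟩; exact h.symm
      · rintro rfl; exact ⟨hp.2.2, rfl⟩
    · intro b hb
      rw [hF] at hb
      have : Finset.bipartiteBelow (fun (p : Finset α × Finset α) b => p.1 ∪ p.2 = b) P b =
          (b.powersetCard 3).image (fun t => (t, b \ t)) := by
        ext p
        rw [Finset.mem_bipartiteBelow, memP, Finset.mem_image]
        constructor
        · rintro ⟨⟨h1, h2, h3⟩, h4⟩
          refine ⟨p.1, ?_, ?_⟩
          · rw [Finset.mem_powersetCard]
            exact ⟨h4 ▸ Finset.subset_union_left, h1⟩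
          · refine Prod.ext rfl ?_
            have := disjoint_of_union_mem hH h1 h2 h3
            show b \ p.1 = p.2
            rw [← h4, Finset.union_sdiff_cancel_left this]
        · rintro ⟨t, ht, rfl⟩
          rw [Finset.mem_powersetCard] at ht
          have hu : t ∪ b \ t = b := Finset.union_sdiff_of_subset ht.1
          refine ⟨⟨ht.2, ?_, ?_⟩, hu⟩
          · show (b \ t).card = 3
            rw [Finset.card_sdiff_of_subset ht.1, hH.card b hb, ht.2]
          · show t ∪ b \ t ∈ H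
            rw [hu]; exact hb
      rw [this, Finset.card_image_of_injective, Finset.card_powersetCard, hH.card b hb]
      · decide
      · intro t t' htt
        exact congrArg Prod.fst htt
  have h := Finset.card_mul_eq_card_mul (s := P) (t := S)
    (fun p Q => p.1 ∈ Q ∧ p.2 ∈ Q) (m := 1) (n := 12) ?_ ?_
  · rw [hPcard] at h
    omega
  · intro p hp
    rw [memP] at hp
    obtain ⟨h1, h2, h3⟩ := hp
    obtain ⟨Q, hQ, hQ'⟩ := exists_unique_quartet hH h1 h2 (disjoint_of_union_mem hH h1 h2 h3) h3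
    rw [Finset.card_eq_one]
    refine ⟨Q, ?_⟩
    ext R
    rw [Finset.mem_bipartiteAbove, Finset.mem_singleton, hS]
    constructor
    · intro hR; exact hQ' R hR
    · rintro rfl; exact hQ
  · intro Q hQ
    rw [hS] at hQ
    have : Finset.bipartiteBelow (fun (p : Finset α × Finset α) (Q : Finset (Finset α)) =>
        p.1 ∈ Q ∧ p.2 ∈ Q) P Q = Q.offDiag := by
      ext p
      rw [Finset.mem_bipartiteBelow, memP, Finset.mem_offDiag]
      constructor
      · rintro ⟨⟨h1, h2, h3⟩, h4, h5⟩
        refine ⟨h4, h5, ?_⟩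
        intro h
        have hd := disjoint_of_union_mem hH h1 h2 h3
        rw [← h, disjoint_self] at hd
        have : p.1.card = 0 := by rw [hd]; rfl
        omega
      · rintro ⟨h1, h2, h3⟩
        exact ⟨⟨(hQ.2.1 _ h1).1, (hQ.2.1 _ h2).1, hQ.2.2 _ h1 _ h2 h3⟩, h1, h2⟩
    rw [this, Finset.offDiag_card, hQ.1]

end Cfsg.Agent.SporadicStructure.Quartet
end

-- part: SporadicStructure/QuartetGolay
section
/-!
The hexads on a dodecad of the length-24 code form a system `Quartet.Hex`; its quartets are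
`Cfsg.quartets d`; and the action of `M24` on all of this.
-/

set_option autoImplicit false

namespace Cfsg.Agent.SporadicStructure.QuartetGolay

open Finset Cfsg Cfsg.Agent.SporadicA.Dodecad Cfsg.Agent.SporadicStructure.Quartet
open scoped Pointwise

theorem mem_hexadsOn {d h : Finset GolayPt} :
    h ∈ hexadsOn d ↔ h.card = 6 ∧ ∃ o ∈ octads, o ∩ d = h := Iff.rfl

theorem hex_hexadsOn {d : Finset GolayPt} (hd : d ∈ dodecads) : Hex d (hexadsOn d) where
  card_d := hd.2
  sub := by
    rintro h ⟨_, o, _, rfl⟩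
    exact Finset.inter_subset_right
  card := fun h hh => hh.1
  ex := by
    intro s hs h5
    obtain ⟨o, ⟨ho, hso⟩, -⟩ := Cfsg.Agent.S0363.result.2 s h5
    have hsub : s ⊆ o ∩ d := Finset.subset_inter hso hs
    have h6 : (o ∩ d).card = 6 := by
      have := Finset.card_le_card hsub
      rcases octad_inter_dodecad ho hd with h | h | h <;> omega
    exact ⟨o ∩ d, ⟨h6, o, ho, rfl⟩, hsub⟩
  uniq := by
    rintro h ⟨_, o, ho, rfl⟩ h' ⟨_, o', ho', rfl⟩ s h5 hs hs'
    rw [octad_eq_of_five ho ho' h5.ge (hs.trans Finset.inter_subset_left)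
      (hs'.trans Finset.inter_subset_left)]
  compl := by
    rintro h ⟨h6, o, ho, rfl⟩
    have ho2 : o.card = 8 := ho.2
    have hd2 : d.card = 12 := hd.2
    have h1 : (symmDiff o d).card = (o \ d).card + (d \ o).card := by
      rw [show symmDiff o d = (o \ d) ∪ (d \ o) from rfl,
        Finset.card_union_of_disjoint disjoint_sdiff_sdiff]
    have h2 := Finset.card_sdiff_add_card_inter o d
    have h3 := Finset.card_sdiff_add_card_inter d o
    rw [Finset.inter_comm d o] at h3
    have h4 : (symmDiff o d) ∩ d = d \ (o ∩ d) := by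
      ext x
      rw [Finset.mem_inter, Finset.mem_symmDiff, Finset.mem_sdiff, Finset.mem_inter]
      tauto
    refine ⟨?_, symmDiff o d, ⟨symmDiff_mem_supports ho.1 hd.1, ?_⟩, h4⟩
    · rw [Finset.card_sdiff_of_subset Finset.inter_subset_right, h6, hd2]
    · rw [h1]; omega

theorem quart_eq_quartets (d : Finset GolayPt) : quart d (hexadsOn d) = quartets d := rfl

/-- Elements of `M24` permute the supports of code words. -/
theorem smul_mem_supports {g : Equiv.Perm GolayPt} (hg : g ∈ M24) {b : Finset GolayPt}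
    (hb : b ∈ supports (golayCode : Set (GolayPt → ZMod 2))) :
    g • b ∈ supports (golayCode : Set (GolayPt → ZMod 2)) := by
  have h : g • supports (golayCode : Set (GolayPt → ZMod 2)) =
      supports (golayCode : Set (GolayPt → ZMod 2)) := hg
  rw [← h]
  exact Set.smul_mem_smul_set hb

theorem smul_mem_octads {g : Equiv.Perm GolayPt} (hg : g ∈ M24) {b : Finset GolayPt}
    (hb : b ∈ octads) : g • b ∈ octads :=
  ⟨smul_mem_supports hg hb.1, by rw [Finset.card_smul_finset]; exact hb.2⟩

theorem smul_mem_dodecads {g : Equiv.Perm GolayPt} (hg : g ∈ M24) {b : Finset GolayPt}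
    (hb : b ∈ dodecads) : g • b ∈ dodecads :=
  ⟨smul_mem_supports hg hb.1, by rw [Finset.card_smul_finset]; exact hb.2⟩

theorem smul_mem_hexadsOn {g : Equiv.Perm GolayPt} (hg : g ∈ M24) {d h : Finset GolayPt}
    (hh : h ∈ hexadsOn d) : g • h ∈ hexadsOn (g • d) := by
  obtain ⟨h6, o, ho, rfl⟩ := hh
  exact ⟨by rw [Finset.card_smul_finset]; exact h6, g • o, smul_mem_octads hg ho,
    (Finset.smul_finset_inter).symm⟩

theorem smul_mem_quartets {g : Equiv.Perm GolayPt} (hg : g ∈ M24) {d : Finset GolayPt}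
    {Q : Finset (Finset GolayPt)} (hQ : Q ∈ quartets d) : g • Q ∈ quartets (g • d) := by
  obtain ⟨h1, h2, h3⟩ := hQ
  refine ⟨by rw [Finset.card_smul_finset]; exact h1, ?_, ?_⟩
  · intro t' ht'
    obtain ⟨t, ht, rfl⟩ := Finset.mem_smul_finset.1 ht'
    exact ⟨by rw [Finset.card_smul_finset]; exact (h2 t ht).1,
      Finset.smul_finset_subset_smul_finset (h2 t ht).2⟩
  · intro t' ht' u' hu' htu
    obtain ⟨t, ht, rfl⟩ := Finset.mem_smul_finset.1 ht'
    obtain ⟨u, hu, rfl⟩ := Finset.mem_smul_finset.1 hu'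
    rw [← Finset.smul_finset_union]
    refine smul_mem_hexadsOn hg (h3 t ht u hu ?_)
    rintro rfl
    exact htu rfl

theorem exists_unique_quartets {d : Finset GolayPt} (hd : d ∈ dodecads) {t u : Finset GolayPt}
    (ht : t.card = 3) (hu : u.card = 3) (htu : Disjoint t u) (hh : t ∪ u ∈ hexadsOn d) :
    ∃! Q : Finset (Finset GolayPt), Q ∈ quartets d ∧ t ∈ Q ∧ u ∈ Q :=
  exists_unique_quartet (hex_hexadsOn hd) ht hu htu hh

theorem ncard_quartets {d : Finset GolayPt} (hd : d ∈ dodecads) : (quartets d).ncard = 220 :=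
  ncard_quart (hex_hexadsOn hd)

/-- If the stabiliser of a dodecad is 5-transitive on it, it is transitive on quartets. -/
theorem quartets_transitive_of {d : Finset GolayPt} (hd : d ∈ dodecads)
    (h5 : ∀ x y : Fin 5 ↪ GolayPt, (∀ i, x i ∈ d) → (∀ i, y i ∈ d) →
      ∃ g : Equiv.Perm GolayPt, g ∈ M24 ∧ g • d = d ∧ ∀ i, g (x i) = y i) :
    ∀ Q ∈ quartets d, ∀ Q' ∈ quartets d,
      ∃ g : Equiv.Perm GolayPt, g ∈ M24 ∧ g • d = d ∧ g • Q = Q' := by
  have key : ∀ Q ∈ quartets d, ∃ (t u : Finset GolayPt) (x : Fin 5 ↪ GolayPt),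
      t ∈ Q ∧ u ∈ Q ∧ t.card = 3 ∧ u.card = 3 ∧ Disjoint t u ∧ t ∪ u ∈ hexadsOn d ∧
      (∀ i, x i ∈ d) ∧ t = {x 0, x 1, x 2} ∧ x 3 ∈ u ∧ x 4 ∈ u := by
    intro Q hQ
    obtain ⟨h1, h2, h3⟩ := hQ
    obtain ⟨t, ht, u, hu, htu⟩ := Finset.one_lt_card.1 (show 1 < Q.card by omega)
    have ct := (h2 t ht).1
    have cu := (h2 u hu).1
    have hh := h3 t ht u hu htu
    have hdis := disjoint_of_union_mem (hex_hexadsOn hd) ct cu hh
    obtain ⟨a, b, c, hab, hac, hbc, rfl⟩ := Finset.card_eq_three.1 ct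
    obtain ⟨e, f, g, hef, heg, hfg, rfl⟩ := Finset.card_eq_three.1 cu
    have hsub := hh.2
    have htd := (h2 _ ht).2
    have hud := (h2 _ hu).2
    have had : a ∈ d := htd (by simp)
    have hbd : b ∈ d := htd (by simp)
    have hcd : c ∈ d := htd (by simp)
    have hed : e ∈ d := hud (by simp)
    have hfd : f ∈ d := hud (by simp)
    have hne : ∀ z ∈ ({a, b, c} : Finset GolayPt), ∀ w ∈ ({e, f, g} : Finset GolayPt), z ≠ w := by
      intro z hz w hw hzw
      exact Finset.disjoint_left.1 hdis hz (hzw ▸ hw)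
    have inj : Function.Injective ![a, b, c, e, f] := by
      have hae := hne a (by simp) e (by simp)
      have haf := hne a (by simp) f (by simp)
      have hbe := hne b (by simp) e (by simp)
      have hbf := hne b (by simp) f (by simp)
      have hce := hne c (by simp) e (by simp)
      have hcf := hne c (by simp) f (by simp)
      intro i j hij
      fin_cases i <;> fin_cases j <;> simp at hij ⊢ <;>
        first
        | exact absurd hij (by assumption)
        | exact absurd hij.symm (by assumption)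
    refine ⟨{a, b, c}, {e, f, g}, ⟨![a, b, c, e, f], inj⟩, ht, hu, ct, cu, hdis, hh, ?_, rfl,
      ?_, ?_⟩
    · intro i
      fin_cases i
      · exact had
      · exact hbd
      · exact hcd
      · exact hed
      · exact hfd
    · show e ∈ _
      simp
    · show f ∈ _
      simp
  intro Q hQ Q' hQ'
  obtain ⟨t, u, x, ht, hu, ct, cu, dtu, htu, hxd, hx, hx3, hx4⟩ := key Q hQ
  obtain ⟨t', u', y, ht', hu', ct', cu', dtu', htu', hyd, hy, hy3, hy4⟩ := key Q' hQ'
  obtain ⟨g, hg, hgd, hgx⟩ := h5 x y hxd hyd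
  refine ⟨g, hg, hgd, ?_⟩
  have hgt : g • t = t' := by
    rw [hx, hy, Finset.smul_finset_insert, Finset.smul_finset_insert,
      Finset.smul_finset_singleton]
    show ({g (x 0), g (x 1), g (x 2)} : Finset GolayPt) = _
    rw [hgx, hgx, hgx]
  have hgQ : g • Q ∈ quartets d := by
    have := smul_mem_quartets hg hQ
    rwa [hgd] at this
  have hgtu : t' ∪ g • u ∈ hexadsOn d := by
    have := smul_mem_hexadsOn hg htu
    rwa [hgd, Finset.smul_finset_union, hgt] at this
  have hd1 : Disjoint t' (g • u) := by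
    rw [← hgt, Finset.disjoint_left]
    intro z hz hz'
    obtain ⟨a, ha, rfl⟩ := Finset.mem_smul_finset.1 hz
    exact Finset.disjoint_left.1 dtu ha ((Finset.smul_mem_smul_finset_iff g).1 hz')
  have hgu : g • u = u' := by
    refine line_unique (hex_hexadsOn hd) ct' hd1 dtu' hgtu htu' (x := y 3) (y := y 4) ?_ ?_ ?_
      hy3 hy4
    · intro h
      exact absurd (y.injective h) (by decide)
    · rw [← hgx 3]
      exact Finset.smul_mem_smul_finset hx3
    · rw [← hgx 4]
      exact Finset.smul_mem_smul_finset hx4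
  have hE := exists_unique_quartets hd ct' cu' dtu' htu'
  refine hE.unique ⟨hgQ, ?_, ?_⟩ ⟨hQ', ht', hu'⟩
  · rw [← hgt]
    exact Finset.smul_mem_smul_finset ht
  · rw [← hgu]
    exact Finset.smul_mem_smul_finset hu

end Cfsg.Agent.SporadicStructure.QuartetGolay
end
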