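import Cfsg.Agent.SporadicA.GolayPerm
import Cfsg.Prelude.Def_SporadicCombinatorics
import Cfsg.Agent.S0384
import Cfsg.Agent.Lib.ElemAbGL
import Cfsg.Agent.S1597
import Cfsg.Agent.S0382
set_option linter.all false

-- part: SporadicStructure/QuartetCode
section
/-!
Families of point sets of the 24 points coded by lists of masks, moved by packed permutations;
certified walks in Schreier graphs.
-/

set_option autoImplicit false

namespace Cfsg.Agent.SporadicStructure.QuartetCode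

open Cfsg Cfsg.Agent.SporadicA.GolayBase Cfsg.Agent.SporadicA.GolayPerm
open scoped Pointwise

/-! ### Families of sets coded by lists of masks -/

/-- The family of point sets coded by a list of masks. -/
def fam (l : List ℕ) : Finset (Finset GolayPt) := (l.map fin).toFinset

theorem mem_fam {l : List ℕ} {t : Finset GolayPt} : t ∈ fam l ↔ ∃ m ∈ l, fin m = t := by
  rw [fam, List.mem_toFinset, List.mem_map]

/-- Insertion in a sorted list. -/
def ins (a : ℕ) : List ℕ → List ℕ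
  | [] => [a]
  | b :: l => bif Nat.ble a b then a :: b :: l else b :: ins a l

/-- Insertion sort. -/
def srt : List ℕ → List ℕ
  | [] => []
  | a :: l => ins a (srt l)

theorem mem_ins {a m : ℕ} {l : List ℕ} : m ∈ ins a l ↔ m = a ∨ m ∈ l := by
  induction l with
  | nil => simp [ins]
  | cons b l ih =>
    rw [ins]
    cases Nat.ble a b with
    | true => simp
    | false =>
      rw [cond_false, List.mem_cons, ih, List.mem_cons]
      tauto

theorem mem_srt {m : ℕ} {l : List ℕ} : m ∈ srt l ↔ m ∈ l := by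
  induction l with
  | nil => rfl
  | cons b l ih => rw [srt, mem_ins, ih, List.mem_cons]

theorem fam_srt (l : List ℕ) : fam (srt l) = fam l := by
  ext t
  rw [mem_fam, mem_fam]
  simp only [mem_srt]

theorem fam_eq_of_mem_iff {l l' : List ℕ} (h : ∀ m, m ∈ l ↔ m ∈ l') : fam l = fam l' := by
  ext t
  rw [mem_fam, mem_fam]
  simp only [h]

/-- The image of a coded family under a packed permutation. -/
def aimg (P : ℕ) (l : List ℕ) : List ℕ := srt (l.map (pimg P))

theorem smul_fam {P : ℕ} (hP : isPerm P = true) (l : List ℕ) :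
    permOf P hP • fam l = fam (aimg P l) := by
  rw [aimg, fam_srt]
  ext t
  rw [mem_fam, Finset.mem_smul_finset]
  constructor
  · rintro ⟨s, hs, rfl⟩
    obtain ⟨m, hm, rfl⟩ := mem_fam.1 hs
    exact ⟨pimg P m, List.mem_map_of_mem hm, (smul_fin hP m).symm⟩
  · rintro ⟨m, hm, rfl⟩
    obtain ⟨n, hn, rfl⟩ := List.mem_map.1 hm
    exact ⟨fin n, mem_fam.2 ⟨n, hn, rfl⟩, smul_fin hP n⟩

/-- Sum of squares of the masks: an invariant used to separate families. -/
def keyL (l : List ℕ) : ℕ := (l.map fun m => m * m).foldr (· + ·) 0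

/-- Sum of squares of the masks of the members. -/
def keyF (Q : Finset (Finset GolayPt)) : ℕ := ∑ t ∈ Q, maskOf t * maskOf t

theorem keyF_fam {l : List ℕ} (hl : l.Nodup) (h : ∀ m ∈ l, m < 2 ^ 24) :
    keyF (fam l) = keyL l := by
  induction l with
  | nil => rfl
  | cons a l ih =>
    rw [List.nodup_cons] at hl
    have h1 : fam (a :: l) = insert (fin a) (fam l) := by
      ext t; simp [mem_fam, eq_comm]
    have h2 : fin a ∉ fam l := by
      intro hmem
      obtain ⟨m, hm, e⟩ := mem_fam.1 hmem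
      have := fin_injective (h m (List.mem_cons_of_mem _ hm)) (h a List.mem_cons_self) e
      exact hl.1 (this ▸ hm)
    have ih' := ih hl.2 (fun m hm => h m (List.mem_cons_of_mem _ hm))
    rw [keyF] at ih' ⊢
    rw [h1, Finset.sum_insert h2, ih', maskOf_fin (h a List.mem_cons_self)]
    rfl

/-! ### Equality and membership tests -/

/-- Equality test for lists of natural numbers. -/
def eqB : List ℕ → List ℕ → Bool
  | [], [] => true
  | a :: l, b :: l' => Nat.beq a b && eqB l l'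
  | _, _ => false

theorem eq_of_eqB : ∀ {l l' : List ℕ}, eqB l l' = true → l = l'
  | [], [], _ => rfl
  | a :: l, b :: l', h => by
    rw [eqB, Bool.and_eq_true] at h
    rw [Nat.eq_of_beq_eq_true h.1, eq_of_eqB h.2]
  | [], _ :: _, h => absurd (show false = true from h) (by decide)
  | _ :: _, [], h => absurd (show false = true from h) (by decide)

/-- Membership test for lists of lists of natural numbers. -/
def memB (x : List ℕ) : List (List ℕ) → Bool
  | [] => false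
  | y :: l => eqB x y || memB x l

theorem mem_of_memB {x : List ℕ} {l : List (List ℕ)} (h : memB x l = true) : x ∈ l := by
  induction l with
  | nil => exact absurd h (by simp [memB])
  | cons y l ih =>
    rw [memB, Bool.or_eq_true] at h
    rcases h with h | h
    · rw [eq_of_eqB h]; exact List.mem_cons_self
    · exact List.mem_cons_of_mem _ (ih h)

/-- Whether all entries of the first list occur in the second one. -/
def subB (l l' : List (List ℕ)) : Bool := l.all fun x => memB x l'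

theorem mem_of_subB {l l' : List (List ℕ)} (h : subB l l' = true) {x : List ℕ} (hx : x ∈ l) :
    x ∈ l' := mem_of_memB (List.all_eq_true.1 h x hx)

/-! ### Walks -/

/-- Check that a list of nodes is a walk from `x` along the maps `f`, the Boolean with each node
telling which map leads to it. -/
def chk (f : Bool → List ℕ → List ℕ) : List ℕ → List (Bool × List ℕ) → Bool
  | _, [] => true
  | x, (i, y) :: l => eqB (f i x) y && chk f y l

/-- All nodes on a walk have a property preserved by the steps. -/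
theorem chk_induction {f : Bool → List ℕ → List ℕ} {C : List ℕ → Prop}
    (hf : ∀ i x, C x → C (f i x)) (l : List (Bool × List ℕ)) :
    ∀ x, chk f x l = true → C x → ∀ y ∈ x :: l.map Prod.snd, C y := by
  induction l with
  | nil =>
    intro x _ hx y hy
    rw [List.map_nil, List.mem_singleton] at hy
    rw [hy]; exact hx
  | cons a l ih =>
    intro x h hx y hy
    rw [chk, Bool.and_eq_true] at h
    have h1 := eq_of_eqB h.1
    rw [List.mem_cons] at hy
    rcases hy with rfl | hy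
    · exact hx
    · exact ih a.2 h.2 (h1 ▸ hf a.1 x hx) y hy

end Cfsg.Agent.SporadicStructure.QuartetCode
end

-- part: SporadicStructure/QuartetStab
section
/-!
The joint stabiliser in `M24` of the base dodecad `d0` and the base quartet `Q0`: generators.
-/

set_option autoImplicit false

namespace Cfsg.Agent.SporadicStructure.QuartetStab

open Cfsg Cfsg.Agent.SporadicA.GolayBase Cfsg.Agent.SporadicA.GolayPerm
open Cfsg.Agent.SporadicStructure.QuartetCode
open scoped Pointwise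

/-- The base dodecad. -/
def d0 : Finset GolayPt := fin 340831

theorem d0_mem : d0 ∈ dodecads :=
  (fin_mem_dodecads_iff (by norm_num)).2 ⟨by decide +kernel, by decide +kernel⟩

/-- Code of the base quartet. -/
def q0 : List ℕ := [7, 336, 70144, 270344]

/-- The base quartet. -/
def Q0 : Finset (Finset GolayPt) := fam q0

/-- Packed permutations. -/
def PA : ℕ := 444811686193746537964266158765281542
@[inherit_doc PA] def PB : ℕ := 304344777206199280595870928151774210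
@[inherit_doc PA] def PX : ℕ := 929000492124499343650182431580424224
@[inherit_doc PA] def PY : ℕ := 796596989235290860699862416851632193

theorem permA : isPerm PA = true := by decide +kernel
theorem permB : isPerm PB = true := by decide +kernel
theorem permX : isPerm PX = true := by decide +kernel
theorem permY : isPerm PY = true := by decide +kernel

/-- The element of `M24` with a given packed permutation. -/
noncomputable def mElt (P : ℕ) (hP : isPerm P = true) (hA : isAut P = true) : M24 :=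
  ⟨permOf P hP, permOf_mem_M24 hP hA⟩

noncomputable def ga : M24 := mElt PA permA (by decide +kernel)
noncomputable def gb : M24 := mElt PB permB (by decide +kernel)
noncomputable def gx : M24 := mElt PX permX (by decide +kernel)
noncomputable def gy : M24 := mElt PY permY (by decide +kernel)

theorem mElt_smul_fin {P : ℕ} (hP : isPerm P = true) (hA : isAut P = true) (m : ℕ) :
    mElt P hP hA • fin m = fin (pimg P m) := smul_fin hP m

theorem mElt_smul_fam {P : ℕ} (hP : isPerm P = true) (hA : isAut P = true) (l : List ℕ) :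
    mElt P hP hA • fam l = fam (aimg P l) := smul_fam hP l

theorem mElt_apply {P : ℕ} (hP : isPerm P = true) (hA : isAut P = true) (p : GolayPt) :
    ((mElt P hP hA : M24) : Equiv.Perm GolayPt) p = pt (papp P (idx p)) := rfl

/-- The joint stabiliser of the base dodecad and the base quartet. -/
abbrev H0 : Subgroup M24 := MulAction.stabilizer M24 d0 ⊓ MulAction.stabilizer M24 Q0

theorem mElt_mem_H0 {P : ℕ} (hP : isPerm P = true) (hA : isAut P = true)
    (h1 : Nat.beq (pimg P 340831) 340831 = true) (h2 : eqB (aimg P q0) q0 = true) :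
    mElt P hP hA ∈ H0 := by
  refine ⟨?_, ?_⟩
  · show mElt P hP hA • d0 = d0
    rw [d0, mElt_smul_fin, Nat.eq_of_beq_eq_true h1]
  · show mElt P hP hA • Q0 = Q0
    rw [Q0, mElt_smul_fam, eq_of_eqB h2]

theorem ga_mem : ga ∈ H0 := mElt_mem_H0 _ _ (by decide +kernel) (by decide +kernel)
theorem gb_mem : gb ∈ H0 := mElt_mem_H0 _ _ (by decide +kernel) (by decide +kernel)
theorem gx_mem : gx ∈ H0 := mElt_mem_H0 _ _ (by decide +kernel) (by decide +kernel)
theorem gy_mem : gy ∈ H0 := mElt_mem_H0 _ _ (by decide +kernel) (by decide +kernel)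

/-! ### Flags -/

/-- The images of the five base points. -/
def flagOf (h : M24) : List ℕ :=
  [idx ((h : Equiv.Perm GolayPt) (pt 0)), idx ((h : Equiv.Perm GolayPt) (pt 1)),
   idx ((h : Equiv.Perm GolayPt) (pt 2)), idx ((h : Equiv.Perm GolayPt) (pt 4)),
   idx ((h : Equiv.Perm GolayPt) (pt 6))]

theorem flagOf_mul {P : ℕ} (hP : isPerm P = true) (hA : isAut P = true) (h : M24) :
    flagOf (mElt P hP hA * h) = (flagOf h).map (papp P) := by
  have key : ∀ p : GolayPt, idx (((mElt P hP hA * h : M24) : Equiv.Perm GolayPt) p) =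
      papp P (idx ((h : Equiv.Perm GolayPt) p)) := by
    intro p
    exact idx_permOf hP _
  simp only [flagOf, key, List.map_cons, List.map_nil]

/-- The base points. -/
def base : Fin 5 ↪ GolayPt := ⟨![pt 0, pt 1, pt 2, pt 4, pt 6], by decide +kernel⟩

theorem base_mem (i : Fin 5) : base i ∈ d0 := by
  revert i; decide +kernel

/-- An element of the stabiliser of `d0` is determined by the images of the five base points. -/
theorem eq_of_flag {h k : M24} (hh : h • d0 = d0) (hk : k • d0 = d0)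
    (hf : flagOf h = flagOf k) : h = k := by
  simp only [flagOf, List.cons.injEq, and_true] at hf
  obtain ⟨h0, h1, h2, h3, h4⟩ := hf
  have key : ∀ i : Fin 5, (h : Equiv.Perm GolayPt) (base i) = (k : Equiv.Perm GolayPt) (base i) := by
    intro i
    fin_cases i
    · exact idx_injective h0
    · exact idx_injective h1
    · exact idx_injective h2
    · exact idx_injective h3
    · exact idx_injective h4
  have hmem : ∀ i : Fin 5, (h : Equiv.Perm GolayPt) (base i) ∈ d0 := by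
    intro i
    have h1 : (h : Equiv.Perm GolayPt) (base i) ∈ (h : Equiv.Perm GolayPt) • d0 :=
      Finset.smul_mem_smul_finset (base_mem i)
    have h2 : (h : Equiv.Perm GolayPt) • d0 = d0 := hh
    rwa [h2] at h1
  obtain ⟨g, -, hg⟩ := Cfsg.Agent.S0384.result d0 d0_mem base
    (base.trans (h : Equiv.Perm GolayPt).toEmbedding) base_mem hmem
  have e1 := hg ⟨h, hh⟩ (fun i => rfl)
  have e2 := hg ⟨k, hk⟩ (fun i => (key i).symm)
  exact congrArg Subtype.val (e1.trans e2.symm)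

/-- Whether two indices lie in the same triple of the base quartet. -/
def sameB (i j : ℕ) : Bool :=
  (Nat.testBit 7 i && Nat.testBit 7 j) || (Nat.testBit 336 i && Nat.testBit 336 j) ||
  (Nat.testBit 70144 i && Nat.testBit 70144 j) || (Nat.testBit 270344 i && Nat.testBit 270344 j)

theorem sameB_iff (p q : GolayPt) :
    sameB (idx p) (idx q) = true ↔ ∃ T ∈ Q0, p ∈ T ∧ q ∈ T := by
  simp only [Q0, q0, mem_fam, sameB, Bool.or_eq_true, Bool.and_eq_true]
  constructor
  · rintro (((⟨h1, h2⟩ | ⟨h1, h2⟩) | ⟨h1, h2⟩) | ⟨h1, h2⟩)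
    · exact ⟨_, ⟨7, by simp, rfl⟩, mem_fin.2 h1, mem_fin.2 h2⟩
    · exact ⟨_, ⟨336, by simp, rfl⟩, mem_fin.2 h1, mem_fin.2 h2⟩
    · exact ⟨_, ⟨70144, by simp, rfl⟩, mem_fin.2 h1, mem_fin.2 h2⟩
    · exact ⟨_, ⟨270344, by simp, rfl⟩, mem_fin.2 h1, mem_fin.2 h2⟩
  · rintro ⟨T, ⟨m, hm, rfl⟩, h1, h2⟩
    rw [mem_fin] at h1 h2
    simp only [List.mem_cons, List.not_mem_nil, or_false] at hm
    rcases hm with rfl | rfl | rfl | rfl
    · exact Or.inl (Or.inl (Or.inl ⟨h1, h2⟩))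
    · exact Or.inl (Or.inl (Or.inr ⟨h1, h2⟩))
    · exact Or.inl (Or.inr ⟨h1, h2⟩)
    · exact Or.inr ⟨h1, h2⟩

theorem same_of_mem {h : M24} (hh : h ∈ H0) {p q : GolayPt}
    (hs : sameB (idx p) (idx q) = true) :
    sameB (idx ((h : Equiv.Perm GolayPt) p)) (idx ((h : Equiv.Perm GolayPt) q)) = true := by
  rw [sameB_iff] at hs ⊢
  obtain ⟨T, hT, hp, hq⟩ := hs
  have h2 : (h : Equiv.Perm GolayPt) • Q0 = Q0 := hh.2
  refine ⟨(h : Equiv.Perm GolayPt) • T, ?_, Finset.smul_mem_smul_finset hp,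
    Finset.smul_mem_smul_finset hq⟩
  rw [← h2]
  exact Finset.smul_mem_smul_finset hT

theorem same_iff_of_mem {h : M24} (hh : h ∈ H0) (p q : GolayPt) :
    sameB (idx ((h : Equiv.Perm GolayPt) p)) (idx ((h : Equiv.Perm GolayPt) q)) =
      sameB (idx p) (idx q) := by
  rw [Bool.eq_iff_iff]
  constructor
  · intro hs
    have h1 := same_of_mem (H0.inv_mem hh) hs
    have key : ∀ r : GolayPt, ((h⁻¹ : M24) : Equiv.Perm GolayPt) ((h : Equiv.Perm GolayPt) r) = r :=
      fun r => (h : Equiv.Perm GolayPt).symm_apply_apply r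
    rwa [key, key] at h1
  · exact same_of_mem hh

/-- The steps on flags. -/
def stepF (i : Bool) (l : List ℕ) : List ℕ := bif i then l.map (papp PB) else l.map (papp PA)

/-- A walk through all 432 flags. -/
def flagWalk : List (Bool × List ℕ) := [
  (true, [2, 0, 1, 3, 18]), (true, [1, 2, 0, 16, 9]), (false, [8, 4, 6, 16, 9]),
  (true, [13, 3, 18, 4, 6]), (false, [3, 13, 18, 2, 0]), (true, [16, 12, 9, 1, 2]),
  (true, [4, 8, 6, 0, 1]), (false, [2, 1, 0, 6, 8]), (true, [1, 0, 2, 18, 13]),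
  (false, [8, 6, 4, 18, 3]), (true, [13, 18, 3, 9, 16]), (false, [3, 18, 13, 9, 16]),
  (true, [16, 9, 12, 6, 4]), (true, [4, 6, 8, 18, 3]), (false, [2, 0, 1, 18, 13]),
  (true, [1, 2, 0, 9, 12]), (true, [0, 1, 2, 6, 8]), (false, [6, 8, 4, 0, 1]),
  (true, [18, 13, 3, 2, 0]), (true, [9, 12, 16, 1, 2]), (false, [9, 12, 16, 8, 4]),
  (true, [6, 8, 4, 13, 3]), (false, [0, 1, 2, 3, 13]), (true, [2, 0, 1, 16, 12]),
  (true, [1, 2, 0, 4, 8]), (false, [8, 4, 6, 2, 1]), (true, [13, 3, 18, 1, 0]),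
  (true, [12, 16, 9, 0, 2]), (false, [12, 16, 9, 6, 4]), (true, [8, 4, 6, 18, 3]),
  (false, [1, 2, 0, 18, 13]), (true, [0, 1, 2, 9, 12]), (true, [2, 0, 1, 6, 8]),
  (false, [4, 6, 8, 0, 1]), (true, [3, 18, 13, 2, 0]), (true, [16, 9, 12, 1, 2]),
  (false, [16, 9, 12, 8, 4]), (true, [4, 6, 8, 13, 3]), (true, [3, 18, 13, 12, 16]),
  (false, [13, 18, 3, 12, 16]), (true, [12, 9, 16, 8, 4]), (false, [12, 9, 16, 1, 2]),
  (true, [8, 6, 4, 0, 1]), (false, [1, 0, 2, 6, 8]), (true, [0, 2, 1, 18, 13]),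
  (false, [6, 4, 8, 18, 3]), (true, [18, 3, 13, 9, 16]), (true, [9, 16, 12, 6, 4]),
  (false, [9, 16, 12, 0, 2]), (true, [6, 4, 8, 2, 1]), (false, [0, 2, 1, 4, 8]),
  (true, [2, 1, 0, 3, 13]), (true, [1, 0, 2, 16, 12]), (false, [8, 6, 4, 16, 12]),
  (true, [13, 18, 3, 4, 8]), (true, [12, 9, 16, 3, 13]), (false, [12, 9, 16, 13, 3]),
  (true, [8, 6, 4, 12, 16]), (false, [1, 0, 2, 12, 16]), (true, [0, 2, 1, 8, 4]),
  (true, [2, 1, 0, 13, 3]), (false, [4, 8, 6, 3, 13]), (true, [3, 13, 18, 16, 12]),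
  (false, [13, 3, 18, 16, 12]), (true, [12, 16, 9, 4, 8]), (false, [12, 16, 9, 2, 1]),
  (true, [8, 4, 6, 1, 0]), (false, [1, 2, 0, 8, 6]), (true, [0, 1, 2, 13, 18]),
  (false, [6, 8, 4, 3, 18]), (true, [18, 13, 3, 16, 9]), (false, [18, 3, 13, 16, 9]),
  (true, [9, 16, 12, 4, 6]), (true, [6, 4, 8, 3, 18]), (false, [0, 2, 1, 13, 18]),
  (true, [2, 1, 0, 12, 9]), (false, [4, 8, 6, 12, 9]), (true, [3, 13, 18, 8, 6]),
  (true, [16, 12, 9, 13, 18]), (false, [16, 12, 9, 3, 18]), (true, [4, 8, 6, 16, 9]),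
  (false, [2, 1, 0, 16, 9]), (true, [1, 0, 2, 4, 6]), (true, [0, 2, 1, 3, 18]),
  (false, [6, 4, 8, 13, 18]), (true, [18, 3, 13, 12, 9]), (false, [18, 13, 3, 12, 9]),
  (true, [9, 12, 16, 8, 6]), (true, [6, 8, 4, 13, 18]), (false, [0, 1, 2, 3, 18]),
  (true, [2, 0, 1, 16, 9]), (false, [4, 6, 8, 16, 9]), (true, [3, 18, 13, 4, 6]),
  (false, [13, 18, 3, 2, 0]), (false, [3, 18, 13, 4, 6]), (true, [16, 9, 12, 3, 18]),
  (false, [16, 9, 12, 13, 18]), (true, [4, 6, 8, 12, 9]), (true, [3, 18, 13, 8, 6]),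
  (false, [13, 18, 3, 1, 0]), (true, [12, 9, 16, 0, 2]), (false, [12, 9, 16, 6, 4]),
  (false, [12, 9, 16, 0, 2]), (true, [8, 6, 4, 2, 1]), (false, [1, 0, 2, 4, 8]),
  (true, [0, 2, 1, 3, 13]), (false, [6, 4, 8, 13, 3]), (true, [18, 3, 13, 12, 16]),
  (true, [9, 16, 12, 8, 4]), (false, [9, 16, 12, 1, 2]), (true, [6, 4, 8, 0, 1]),
  (true, [18, 3, 13, 2, 0]), (false, [18, 13, 3, 4, 6]), (true, [9, 12, 16, 3, 18]),
  (false, [9, 12, 16, 13, 18]), (true, [6, 8, 4, 12, 9]), (false, [0, 1, 2, 12, 9]),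
  (true, [2, 0, 1, 8, 6]), (false, [4, 6, 8, 1, 0]), (true, [3, 18, 13, 0, 2]),
  (false, [13, 18, 3, 6, 4]), (true, [12, 9, 16, 18, 3]), (true, [8, 6, 4, 9, 16]),
  (false, [1, 0, 2, 9, 16]), (true, [0, 2, 1, 6, 4]), (true, [2, 1, 0, 18, 3]),
  (false, [4, 8, 6, 18, 13]), (true, [3, 13, 18, 9, 12]), (true, [16, 12, 9, 6, 8]),
  (false, [16, 12, 9, 0, 1]), (true, [4, 8, 6, 2, 0]), (false, [2, 1, 0, 4, 6]),
  (true, [1, 0, 2, 3, 18]), (false, [8, 6, 4, 13, 18]), (true, [13, 18, 3, 12, 9]),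
  (true, [12, 9, 16, 8, 6]), (false, [12, 9, 16, 1, 0]), (true, [8, 6, 4, 0, 2]),
  (true, [13, 18, 3, 2, 1]), (false, [3, 18, 13, 4, 8]), (true, [16, 9, 12, 3, 13]),
  (true, [4, 6, 8, 16, 12]), (true, [3, 18, 13, 4, 8]), (true, [16, 9, 12, 3, 13]),
  (false, [16, 9, 12, 13, 3]), (true, [4, 6, 8, 12, 16]), (true, [3, 18, 13, 8, 4]),
  (false, [13, 18, 3, 1, 2]), (true, [12, 9, 16, 0, 1]), (false, [12, 9, 16, 6, 8]),
  (true, [8, 6, 4, 18, 13]), (true, [13, 18, 3, 9, 12]), (false, [3, 18, 13, 9, 12]),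
  (true, [16, 9, 12, 6, 8]), (true, [4, 6, 8, 18, 13]), (false, [2, 0, 1, 18, 3]),
  (true, [1, 2, 0, 9, 16]), (true, [0, 1, 2, 6, 4]), (false, [6, 8, 4, 0, 2]),
  (true, [18, 13, 3, 2, 1]), (false, [18, 3, 13, 4, 8]), (true, [9, 16, 12, 3, 13]),
  (true, [6, 4, 8, 16, 12]), (false, [0, 2, 1, 16, 12]), (true, [2, 1, 0, 4, 8]),
  (true, [1, 0, 2, 3, 13]), (false, [8, 6, 4, 13, 3]), (false, [1, 0, 2, 3, 13]),
  (true, [0, 2, 1, 16, 12]), (true, [2, 1, 0, 4, 8]), (false, [4, 8, 6, 2, 1]),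
  (true, [3, 13, 18, 1, 0]), (true, [16, 12, 9, 0, 2]), (false, [16, 12, 9, 6, 4]),
  (true, [4, 8, 6, 18, 3]), (true, [3, 13, 18, 9, 16]), (false, [13, 3, 18, 9, 16]),
  (false, [3, 13, 18, 9, 16]), (true, [16, 12, 9, 6, 4]), (true, [4, 8, 6, 18, 3]),
  (false, [2, 1, 0, 18, 13]), (true, [1, 0, 2, 9, 12]), (false, [8, 6, 4, 9, 12]),
  (true, [13, 18, 3, 6, 8]), (false, [3, 18, 13, 0, 1]), (true, [16, 9, 12, 2, 0]),
  (false, [16, 9, 12, 4, 6]), (true, [4, 6, 8, 3, 18]), (false, [2, 0, 1, 13, 18]),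
  (true, [1, 2, 0, 12, 9]), (false, [8, 4, 6, 12, 9]), (true, [13, 3, 18, 8, 6]),
  (true, [12, 16, 9, 13, 18]), (false, [12, 16, 9, 3, 18]), (true, [8, 4, 6, 16, 9]),
  (false, [1, 2, 0, 16, 9]), (true, [0, 1, 2, 4, 6]), (false, [6, 8, 4, 2, 0]),
  (true, [18, 13, 3, 1, 2]), (false, [18, 3, 13, 8, 4]), (true, [9, 16, 12, 13, 3]),
  (true, [6, 4, 8, 12, 16]), (false, [0, 2, 1, 12, 16]), (true, [2, 1, 0, 8, 4]),
  (true, [1, 0, 2, 13, 3]), (false, [8, 6, 4, 3, 13]), (true, [13, 18, 3, 16, 12]),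
  (true, [12, 9, 16, 4, 8]), (false, [12, 9, 16, 2, 1]), (true, [8, 6, 4, 1, 0]),
  (false, [1, 0, 2, 8, 6]), (false, [8, 6, 4, 1, 0]), (true, [13, 18, 3, 0, 2]),
  (false, [3, 18, 13, 6, 4]), (true, [16, 9, 12, 18, 3]), (true, [4, 6, 8, 9, 16]),
  (false, [2, 0, 1, 9, 16]), (true, [1, 2, 0, 6, 4]), (true, [0, 1, 2, 18, 3]),
  (false, [6, 8, 4, 18, 13]), (true, [18, 13, 3, 9, 12]), (false, [18, 3, 13, 9, 12]),
  (true, [9, 16, 12, 6, 8]), (false, [9, 16, 12, 0, 1]), (true, [6, 4, 8, 2, 0]),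
  (false, [0, 2, 1, 4, 6]), (true, [2, 1, 0, 3, 18]), (true, [1, 0, 2, 16, 9]),
  (false, [8, 6, 4, 16, 9]), (true, [13, 18, 3, 4, 6]), (true, [12, 9, 16, 3, 18]),
  (false, [12, 9, 16, 13, 18]), (true, [8, 6, 4, 12, 9]), (true, [13, 18, 3, 8, 6]),
  (false, [3, 18, 13, 1, 0]), (true, [16, 9, 12, 0, 2]), (true, [4, 6, 8, 2, 1]),
  (false, [2, 0, 1, 4, 8]), (true, [1, 2, 0, 3, 13]), (false, [8, 4, 6, 13, 3]),
  (true, [13, 3, 18, 12, 16]), (false, [3, 13, 18, 12, 16]), (true, [16, 12, 9, 8, 4]),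
  (true, [4, 8, 6, 13, 3]), (true, [3, 13, 18, 12, 16]), (false, [13, 3, 18, 12, 16]),
  (true, [12, 16, 9, 8, 4]), (false, [12, 16, 9, 1, 2]), (true, [8, 4, 6, 0, 1]),
  (false, [1, 2, 0, 6, 8]), (true, [0, 1, 2, 18, 13]), (false, [6, 8, 4, 18, 3]),
  (true, [18, 13, 3, 9, 16]), (true, [9, 12, 16, 6, 4]), (false, [9, 12, 16, 0, 2]),
  (true, [6, 8, 4, 2, 1]), (true, [18, 13, 3, 1, 0]), (false, [18, 3, 13, 8, 6]),
  (true, [9, 16, 12, 13, 18]), (false, [9, 16, 12, 3, 18]), (true, [6, 4, 8, 16, 9]),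
  (true, [18, 3, 13, 4, 6]), (true, [9, 16, 12, 3, 18]), (false, [9, 16, 12, 13, 18]),
  (true, [6, 4, 8, 12, 9]), (false, [0, 2, 1, 12, 9]), (true, [2, 1, 0, 8, 6]),
  (true, [1, 0, 2, 13, 18]), (false, [8, 6, 4, 3, 18]), (true, [13, 18, 3, 16, 9]),
  (false, [3, 18, 13, 16, 9]), (false, [13, 18, 3, 16, 9]), (true, [12, 9, 16, 4, 6]),
  (false, [12, 9, 16, 2, 0]), (true, [8, 6, 4, 1, 2]), (true, [13, 18, 3, 0, 1]),
  (false, [3, 18, 13, 6, 8]), (true, [16, 9, 12, 18, 13]), (true, [4, 6, 8, 9, 12]),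
  (false, [2, 0, 1, 9, 12]), (true, [1, 2, 0, 6, 8]), (false, [8, 4, 6, 0, 1]),
  (true, [13, 3, 18, 2, 0]), (false, [3, 13, 18, 4, 6]), (true, [16, 12, 9, 3, 18]),
  (true, [4, 8, 6, 16, 9]), (false, [2, 1, 0, 16, 9]), (true, [1, 0, 2, 4, 6]),
  (false, [8, 6, 4, 2, 0]), (false, [1, 0, 2, 4, 6]), (true, [0, 2, 1, 3, 18]),
  (false, [6, 4, 8, 13, 18]), (true, [18, 3, 13, 12, 9]), (true, [9, 16, 12, 8, 6]),
  (false, [9, 16, 12, 1, 0]), (true, [6, 4, 8, 0, 2]), (true, [18, 3, 13, 2, 1]),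
  (false, [18, 13, 3, 4, 8]), (true, [9, 12, 16, 3, 13]), (false, [9, 12, 16, 13, 3]),
  (true, [6, 8, 4, 12, 16]), (true, [18, 13, 3, 8, 4]), (false, [18, 3, 13, 1, 2]),
  (true, [9, 16, 12, 0, 1]), (false, [9, 16, 12, 6, 8]), (true, [6, 4, 8, 18, 13]),
  (false, [0, 2, 1, 18, 3]), (true, [2, 1, 0, 9, 16]), (false, [4, 8, 6, 9, 16]),
  (true, [3, 13, 18, 6, 4]), (false, [13, 3, 18, 0, 2]), (false, [3, 13, 18, 6, 4]),
  (true, [16, 12, 9, 18, 3]), (false, [16, 12, 9, 18, 13]), (true, [4, 8, 6, 9, 12]),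
  (false, [2, 1, 0, 9, 12]), (false, [4, 8, 6, 9, 12]), (true, [3, 13, 18, 6, 8]),
  (false, [13, 3, 18, 0, 1]), (true, [12, 16, 9, 2, 0]), (true, [8, 4, 6, 1, 2]),
  (false, [1, 2, 0, 8, 4]), (true, [0, 1, 2, 13, 3]), (true, [2, 0, 1, 12, 16]),
  (true, [1, 2, 0, 8, 4]), (true, [0, 1, 2, 13, 3]), (false, [6, 8, 4, 3, 13]),
  (true, [18, 13, 3, 16, 12]), (true, [9, 12, 16, 4, 8]), (false, [9, 12, 16, 2, 1]),
  (true, [6, 8, 4, 1, 0]), (false, [0, 1, 2, 8, 6]), (false, [6, 8, 4, 1, 0]),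
  (true, [18, 13, 3, 0, 2]), (false, [18, 3, 13, 6, 4]), (true, [9, 16, 12, 18, 3]),
  (false, [9, 16, 12, 18, 13]), (true, [6, 4, 8, 9, 12]), (true, [18, 3, 13, 6, 8]),
  (false, [18, 13, 3, 0, 1]), (true, [9, 12, 16, 2, 0]), (true, [6, 8, 4, 1, 2]),
  (false, [0, 1, 2, 8, 4]), (true, [2, 0, 1, 13, 3]), (true, [1, 2, 0, 12, 16]),
  (false, [8, 4, 6, 12, 16]), (true, [13, 3, 18, 8, 4]), (false, [3, 13, 18, 1, 2]),
  (false, [13, 3, 18, 8, 4]), (true, [12, 16, 9, 13, 3]), (false, [12, 16, 9, 3, 13]),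
  (true, [8, 4, 6, 16, 12]), (false, [1, 2, 0, 16, 12]), (true, [0, 1, 2, 4, 8]),
  (true, [2, 0, 1, 3, 13]), (true, [1, 2, 0, 16, 12]), (false, [8, 4, 6, 16, 12]),
  (true, [13, 3, 18, 4, 8]), (false, [3, 13, 18, 2, 1]), (true, [16, 12, 9, 1, 0]),
  (true, [4, 8, 6, 0, 2]), (false, [2, 1, 0, 6, 4]), (true, [1, 0, 2, 18, 3]),
  (true, [0, 2, 1, 9, 16]), (false, [6, 4, 8, 9, 16]), (true, [18, 3, 13, 6, 4]),
  (true, [9, 16, 12, 18, 3]), (false, [9, 16, 12, 18, 13]), (true, [6, 4, 8, 9, 12]),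
  (false, [0, 2, 1, 9, 12]), (false, [6, 4, 8, 9, 12]), (true, [18, 3, 13, 6, 8]),
  (false, [18, 13, 3, 0, 1]), (true, [9, 12, 16, 2, 0]), (false, [9, 12, 16, 4, 6]),
  (true, [6, 8, 4, 3, 18]), (false, [0, 1, 2, 13, 18]), (true, [2, 0, 1, 12, 9]),
  (true, [1, 2, 0, 8, 6]), (false, [8, 4, 6, 1, 0]), (true, [13, 3, 18, 0, 2]),
  (true, [12, 16, 9, 2, 1]), (false, [12, 16, 9, 4, 8]), (true, [8, 4, 6, 3, 13]),
  (false, [1, 2, 0, 13, 3]), (true, [0, 1, 2, 12, 16]), (true, [2, 0, 1, 8, 4]),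
  (false, [4, 6, 8, 1, 2]), (true, [3, 18, 13, 0, 1]), (false, [13, 18, 3, 6, 8]),
  (true, [12, 9, 16, 18, 13]), (true, [8, 6, 4, 9, 12]), (false, [1, 0, 2, 9, 12]),
  (true, [0, 2, 1, 6, 8]), (false, [6, 4, 8, 0, 1]), (true, [18, 3, 13, 2, 0]),
  (false, [18, 13, 3, 4, 6]), (true, [9, 12, 16, 3, 18]), (true, [6, 8, 4, 16, 9]),
  (false, [0, 1, 2, 16, 9]), (true, [2, 0, 1, 4, 6]), (false, [4, 6, 8, 2, 0]),
  (true, [3, 18, 13, 1, 2]), (true, [16, 9, 12, 0, 1]), (true, [4, 6, 8, 2, 0]),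
  (true, [3, 18, 13, 1, 2]), (false, [13, 18, 3, 8, 4]), (false, [3, 18, 13, 1, 2]),
  (true, [16, 9, 12, 0, 1]), (true, [4, 6, 8, 2, 0]), (false, [2, 0, 1, 4, 6]),
  (true, [1, 2, 0, 3, 18]), (false, [8, 4, 6, 13, 18]), (true, [13, 3, 18, 12, 9]),
  (false, [3, 13, 18, 12, 9]), (true, [16, 12, 9, 8, 6]), (true, [4, 8, 6, 13, 18]),
  (true, [3, 13, 18, 12, 9]), (false, [13, 3, 18, 12, 9]), (true, [12, 16, 9, 8, 6]),
  (false, [12, 16, 9, 1, 0]), (true, [8, 4, 6, 0, 2]), (true, [13, 3, 18, 2, 1]),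
  (false, [3, 13, 18, 4, 8]), (true, [16, 12, 9, 3, 13]), (false, [16, 12, 9, 13, 3]),
  (true, [4, 8, 6, 12, 16]), (false, [2, 1, 0, 12, 16]), (true, [1, 0, 2, 8, 4]),
  (true, [0, 2, 1, 13, 3]), (false, [6, 4, 8, 3, 13]), (true, [18, 3, 13, 16, 12]),
  (true, [9, 16, 12, 4, 8]), (false, [9, 16, 12, 2, 1]), (true, [6, 4, 8, 1, 0]),
  (false, [0, 2, 1, 8, 6]), (true, [2, 1, 0, 13, 18]), (false, [4, 8, 6, 3, 18]),
  (true, [3, 13, 18, 16, 9]), (false, [13, 3, 18, 16, 9]), (true, [12, 16, 9, 4, 6]),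
  (true, [8, 4, 6, 3, 18]), (false, [1, 2, 0, 13, 18]), (true, [0, 1, 2, 12, 9]),
  (false, [6, 8, 4, 12, 9]), (true, [18, 13, 3, 8, 6]), (false, [18, 3, 13, 1, 0]),
  (true, [9, 16, 12, 0, 2]), (true, [6, 4, 8, 2, 1]), (false, [0, 2, 1, 4, 8]),
  (true, [2, 1, 0, 3, 13]), (true, [1, 0, 2, 16, 12]), (false, [8, 6, 4, 16, 12]),
  (true, [13, 18, 3, 4, 8]), (false, [3, 18, 13, 2, 1]), (true, [16, 9, 12, 1, 0]),
  (false, [16, 9, 12, 8, 6]), (true, [4, 6, 8, 13, 18]), (true, [3, 18, 13, 12, 9]),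
  (true, [16, 9, 12, 8, 6]), (false, [16, 9, 12, 1, 0]), (true, [4, 6, 8, 0, 2]),
  (false, [2, 0, 1, 6, 4]), (true, [1, 2, 0, 18, 3]), (true, [0, 1, 2, 9, 16]),
  (false, [6, 8, 4, 9, 16]), (true, [18, 13, 3, 6, 4]), (false, [18, 3, 13, 0, 2]),
  (false, [18, 13, 3, 6, 4]), (true, [9, 12, 16, 18, 3]), (false, [9, 12, 16, 18, 13]),
  (true, [6, 8, 4, 9, 12]), (true, [18, 13, 3, 6, 8]), (false, [18, 3, 13, 0, 1]),
  (true, [9, 16, 12, 2, 0]), (true, [6, 4, 8, 1, 2]), (false, [0, 2, 1, 8, 4]),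
  (true, [2, 1, 0, 13, 3]), (false, [4, 8, 6, 3, 13]), (true, [3, 13, 18, 16, 12]),
  (true, [16, 12, 9, 4, 8]), (false, [16, 12, 9, 2, 1]), (true, [4, 8, 6, 1, 0]),
  (true, [3, 13, 18, 0, 2]), (false, [13, 3, 18, 6, 4]), (true, [12, 16, 9, 18, 3]),
  (true, [8, 4, 6, 9, 16]), (true, [13, 3, 18, 6, 4]), (true, [12, 16, 9, 18, 3]),
  (false, [12, 16, 9, 18, 13]), (true, [8, 4, 6, 9, 12]), (true, [13, 3, 18, 6, 8]),
  (false, [3, 13, 18, 0, 1]), (true, [16, 12, 9, 2, 0]), (false, [16, 12, 9, 4, 6]),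
  (false, [16, 12, 9, 2, 0]), (true, [4, 8, 6, 1, 2]), (false, [2, 1, 0, 8, 4]),
  (true, [1, 0, 2, 13, 3]), (false, [8, 6, 4, 3, 13]), (true, [13, 18, 3, 16, 12]),
  (false, [3, 18, 13, 16, 12]), (true, [16, 9, 12, 4, 8]), (false, [16, 9, 12, 2, 1]),
  (false, [16, 9, 12, 4, 8]), (true, [4, 6, 8, 3, 13]), (false, [2, 0, 1, 13, 3]),
  (true, [1, 2, 0, 12, 16]), (false, [8, 4, 6, 12, 16]), (true, [13, 3, 18, 8, 4]),
  (false, [3, 13, 18, 1, 2]), (true, [16, 12, 9, 0, 1]), (true, [4, 8, 6, 2, 0]),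
  (false, [2, 1, 0, 4, 6]), (true, [1, 0, 2, 3, 18]), (true, [0, 2, 1, 16, 9]),
  (false, [6, 4, 8, 16, 9]), (true, [18, 3, 13, 4, 6]), (false, [18, 13, 3, 2, 0]),
  (true, [9, 12, 16, 1, 2]), (false, [9, 12, 16, 8, 4]), (true, [6, 8, 4, 13, 3]),
  (true, [18, 13, 3, 12, 16]), (false, [18, 3, 13, 12, 16]), (true, [9, 16, 12, 8, 4]),
  (true, [6, 4, 8, 13, 3]), (false, [0, 2, 1, 3, 13]), (true, [2, 1, 0, 16, 12]),
  (false, [4, 8, 6, 16, 12]), (true, [3, 13, 18, 4, 8]), (true, [16, 12, 9, 3, 13]),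
  (false, [16, 12, 9, 13, 3]), (true, [4, 8, 6, 12, 16]), (true, [3, 13, 18, 8, 4]),
  (false, [13, 3, 18, 1, 2]), (true, [12, 16, 9, 0, 1]), (false, [12, 16, 9, 6, 8]),
  (true, [8, 4, 6, 18, 13]), (true, [13, 3, 18, 9, 12]), (true, [12, 16, 9, 6, 8]),
  (false, [12, 16, 9, 0, 1]), (true, [8, 4, 6, 2, 0]), (false, [1, 2, 0, 4, 6]),
  (true, [0, 1, 2, 3, 18]), (false, [6, 8, 4, 13, 18]), (true, [18, 13, 3, 12, 9]),
  (true, [9, 12, 16, 8, 6]), (false, [9, 12, 16, 1, 0]), (true, [6, 8, 4, 0, 2]),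
  (true, [18, 13, 3, 2, 1]), (false, [18, 3, 13, 4, 8]), (true, [9, 16, 12, 3, 13]),
  (false, [9, 16, 12, 13, 3]), (true, [6, 4, 8, 12, 16]), (true, [18, 3, 13, 8, 4]),
  (false, [18, 13, 3, 1, 2]), (true, [9, 12, 16, 0, 1]), (false, [9, 12, 16, 6, 8]),
  (true, [6, 8, 4, 18, 13]), (true, [18, 13, 3, 9, 12]), (false, [18, 3, 13, 9, 12]),
  (true, [9, 16, 12, 6, 8]), (true, [6, 4, 8, 18, 13]), (false, [0, 2, 1, 18, 3]),
  (true, [2, 1, 0, 9, 16]), (true, [1, 0, 2, 6, 4]), (true, [0, 2, 1, 18, 3]),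
  (false, [6, 4, 8, 18, 13]), (true, [18, 3, 13, 9, 12]), (true, [9, 16, 12, 6, 8]),
  (false, [9, 16, 12, 0, 1]), (true, [6, 4, 8, 2, 0]), (true, [18, 3, 13, 1, 2]),
  (false, [18, 13, 3, 8, 4]), (true, [9, 12, 16, 13, 3]), (false, [9, 12, 16, 3, 13]),
  (true, [6, 8, 4, 16, 12]), (false, [0, 1, 2, 16, 12]), (true, [2, 0, 1, 4, 8]),
  (false, [4, 6, 8, 2, 1]), (true, [3, 18, 13, 1, 0]), (false, [13, 18, 3, 8, 6]),
  (true, [12, 9, 16, 13, 18]), (true, [8, 6, 4, 12, 9]), (false, [1, 0, 2, 12, 9])]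

/-- The nodes of the walk. -/
def flagNodes : List (List ℕ) := [0, 1, 2, 4, 6] :: flagWalk.map Prod.snd

theorem flagWalk_chk : chk stepF [0, 1, 2, 4, 6] flagWalk = true := by decide +kernel

/-- Every flag satisfying the obvious conditions is on the walk. -/
def flagAll : Bool :=
  (List.range 24).all fun i0 => (List.range 24).all fun i1 =>
    !(sameB i0 i1 && !(Nat.beq i0 i1)) ||
    (List.range 24).all fun i2 =>
      !(sameB i0 i2 && !(Nat.beq i0 i2) && !(Nat.beq i1 i2)) ||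
      (List.range 24).all fun i3 =>
        !(sameB i3 i3 && !(sameB i0 i3)) ||
        (List.range 24).all fun i4 =>
          !(sameB i3 i4 && !(Nat.beq i3 i4)) || memB [i0, i1, i2, i3, i4] flagNodes

theorem flagAll_eq : flagAll = true := by decide +kernel

theorem mem_flagNodes {i0 i1 i2 i3 i4 : ℕ} (h0 : i0 < 24) (h1 : i1 < 24) (h2 : i2 < 24)
    (h3 : i3 < 24) (h4 : i4 < 24) (s1 : sameB i0 i1 = true) (n1 : i0 ≠ i1)
    (s2 : sameB i0 i2 = true) (n2 : i0 ≠ i2) (n3 : i1 ≠ i2) (s3 : sameB i3 i3 = true)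
    (s4 : sameB i0 i3 = false) (s5 : sameB i3 i4 = true) (n4 : i3 ≠ i4) :
    [i0, i1, i2, i3, i4] ∈ flagNodes := by
  have hb : ∀ {i j : ℕ}, i ≠ j → Nat.beq i j = false := by
    intro i j hij
    cases hh : Nat.beq i j with
    | false => rfl
    | true => exact absurd (Nat.eq_of_beq_eq_true hh) hij
  have h := flagAll_eq
  unfold flagAll at h
  have g1 := List.all_eq_true.1 (List.all_eq_true.1 h i0 (List.mem_range.2 h0)) i1
    (List.mem_range.2 h1)
  rw [s1, hb n1] at g1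
  simp only [Bool.not_false, Bool.and_true, Bool.not_true, Bool.false_or] at g1
  have g2 := List.all_eq_true.1 g1 i2 (List.mem_range.2 h2)
  rw [s2, hb n2, hb n3] at g2
  simp only [Bool.not_false, Bool.and_true, Bool.not_true, Bool.false_or] at g2
  have g3 := List.all_eq_true.1 g2 i3 (List.mem_range.2 h3)
  rw [s3, s4] at g3
  simp only [Bool.not_false, Bool.and_true, Bool.not_true, Bool.false_or] at g3
  have g4 := List.all_eq_true.1 g3 i4 (List.mem_range.2 h4)
  rw [s5, hb n4] at g4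
  simp only [Bool.not_false, Bool.and_true, Bool.not_true, Bool.false_or] at g4
  exact mem_of_memB g4

theorem flagNodes_reached (f : List ℕ) (hf : f ∈ flagNodes) :
    ∃ k ∈ Subgroup.closure ({ga, gb} : Set M24), flagOf k = f := by
  refine chk_induction (f := stepF)
    (C := fun f => ∃ k ∈ Subgroup.closure ({ga, gb} : Set M24), flagOf k = f)
    ?_ flagWalk _ flagWalk_chk ?_ f hf
  · rintro i x ⟨k, hk, rfl⟩
    cases i with
    | false =>
      exact ⟨ga * k, Subgroup.mul_mem _ (Subgroup.subset_closure (by simp)) hk, flagOf_mul _ _ _⟩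
    | true =>
      exact ⟨gb * k, Subgroup.mul_mem _ (Subgroup.subset_closure (by simp)) hk, flagOf_mul _ _ _⟩
  · exact ⟨1, Subgroup.one_mem _, by decide +kernel⟩

theorem closure_le : Subgroup.closure ({ga, gb} : Set M24) ≤ H0 := by
  rw [Subgroup.closure_le]
  intro g hg
  rcases hg with rfl | hg
  · exact ga_mem
  · rw [Set.mem_singleton_iff] at hg
    rw [hg]; exact gb_mem

/-- The joint stabiliser is generated by two elements. -/
theorem H0_eq_closure : H0 = Subgroup.closure ({ga, gb} : Set M24) := by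
  apply le_antisymm _ closure_le
  intro h hh
  have inj : ∀ {i j : ℕ}, i < 24 → j < 24 → i ≠ j →
      idx ((h : Equiv.Perm GolayPt) (pt i)) ≠ idx ((h : Equiv.Perm GolayPt) (pt j)) := by
    intro i j hi hj hij e
    apply hij
    have := (h : Equiv.Perm GolayPt).injective (idx_injective e)
    rw [← idx_pt hi, ← idx_pt hj, this]
  have hs : ∀ {i j : ℕ}, i < 24 → j < 24 →
      sameB (idx ((h : Equiv.Perm GolayPt) (pt i))) (idx ((h : Equiv.Perm GolayPt) (pt j))) =
        sameB i j := by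
    intro i j hi hj
    rw [same_iff_of_mem hh, idx_pt hi, idx_pt hj]
  have hmem : flagOf h ∈ flagNodes := by
    refine mem_flagNodes (idx_lt _) (idx_lt _) (idx_lt _) (idx_lt _) (idx_lt _) ?_ ?_ ?_ ?_ ?_ ?_
      ?_ ?_ ?_
    · rw [hs (by norm_num) (by norm_num)]; decide +kernel
    · exact inj (by norm_num) (by norm_num) (by norm_num)
    · rw [hs (by norm_num) (by norm_num)]; decide +kernel
    · exact inj (by norm_num) (by norm_num) (by norm_num)
    · exact inj (by norm_num) (by norm_num) (by norm_num)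
    · rw [hs (by norm_num) (by norm_num)]; decide +kernel
    · rw [hs (by norm_num) (by norm_num)]; decide +kernel
    · rw [hs (by norm_num) (by norm_num)]; decide +kernel
    · exact inj (by norm_num) (by norm_num) (by norm_num)
  obtain ⟨k, hk, hkf⟩ := flagNodes_reached _ hmem
  have : h = k := eq_of_flag hh.1 (closure_le hk).1 hkf.symm
  rw [this]; exact hk

end Cfsg.Agent.SporadicStructure.QuartetStab
end

-- part: SporadicStructure/QuartetNormal
section
/-!
The normal subgroup of order 9 of the base quartet stabiliser; transport to all quartets.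
-/

set_option autoImplicit false

namespace Cfsg.Agent.SporadicStructure.QuartetNormal

open Cfsg Cfsg.Agent.SporadicA.GolayBase Cfsg.Agent.SporadicA.GolayPerm
open Cfsg.Agent.SporadicStructure.QuartetCode Cfsg.Agent.SporadicStructure.QuartetStab
open scoped Pointwise

/-! ### The base quartet is a quartet -/

theorem mem_hexadsOn_fin {m : ℕ} (o : ℕ) (h6 : popcount m = 6) (ho : o < 2 ^ 24)
    (hc : isCode o = true) (h8 : popcount o = 8) (h : o &&& 340831 = m) : fin m ∈ hexadsOn d0 := by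
  refine ⟨by rw [card_fin, h6], fin o, (fin_mem_octads_iff ho).2 ⟨hc, h8⟩, ?_⟩
  rw [d0, ← fin_and, h]

theorem hex01 : fin 343 ∈ hexadsOn d0 :=
  mem_hexadsOn_fin 1065303 (by decide +kernel) (by decide +kernel) (by decide +kernel)
    (by decide +kernel) (by decide +kernel)
theorem hex02 : fin 70151 ∈ hexadsOn d0 :=
  mem_hexadsOn_fin 2183687 (by decide +kernel) (by decide +kernel) (by decide +kernel)
    (by decide +kernel) (by decide +kernel)
theorem hex03 : fin 270351 ∈ hexadsOn d0 :=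
  mem_hexadsOn_fin 3416079 (by decide +kernel) (by decide +kernel) (by decide +kernel)
    (by decide +kernel) (by decide +kernel)
theorem hex12 : fin 70480 ∈ hexadsOn d0 :=
  mem_hexadsOn_fin 3216208 (by decide +kernel) (by decide +kernel) (by decide +kernel)
    (by decide +kernel) (by decide +kernel)
theorem hex13 : fin 270680 ∈ hexadsOn d0 :=
  mem_hexadsOn_fin 2384216 (by decide +kernel) (by decide +kernel) (by decide +kernel)
    (by decide +kernel) (by decide +kernel)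
theorem hex23 : fin 340488 ∈ hexadsOn d0 :=
  mem_hexadsOn_fin 1405448 (by decide +kernel) (by decide +kernel) (by decide +kernel)
    (by decide +kernel) (by decide +kernel)

theorem Q0_mem : Q0 ∈ quartets d0 := by
  refine ⟨by decide +kernel, ?_, ?_⟩
  · intro t ht
    obtain ⟨m, hm, rfl⟩ := mem_fam.1 ht
    simp only [q0, List.mem_cons, List.not_mem_nil, or_false] at hm
    rcases hm with rfl | rfl | rfl | rfl <;> decide +kernel
  · intro t ht u hu htu
    obtain ⟨m, hm, rfl⟩ := mem_fam.1 ht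
    obtain ⟨n, hn, rfl⟩ := mem_fam.1 hu
    simp only [q0, List.mem_cons, List.not_mem_nil, or_false] at hm hn
    rw [← fin_or]
    rcases hm with rfl | rfl | rfl | rfl <;> rcases hn with rfl | rfl | rfl | rfl
    · exact absurd rfl htu
    · exact hex01
    · exact hex02
    · exact hex03
    · exact hex01
    · exact absurd rfl htu
    · exact hex12
    · exact hex13
    · exact hex02
    · exact hex12
    · exact absurd rfl htu
    · exact hex23
    · exact hex03
    · exact hex13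
    · exact hex23
    · exact absurd rfl htu

/-! ### Transport -/

/-- Every quartet of every dodecad is the image of the base quartet. -/
theorem exists_smul_eq {d : Finset GolayPt} (hd : d ∈ dodecads) {Q : Finset (Finset GolayPt)}
    (hQ : Q ∈ quartets d) : ∃ g : M24, g • d0 = d ∧ g • Q0 = Q := by
  obtain ⟨g, hg⟩ := Cfsg.Agent.S0368.result d0 d d0_mem hd
  have h1 : (g : Equiv.Perm GolayPt) • Q0 ∈ quartets ((g : Equiv.Perm GolayPt) • d0) :=
    Cfsg.Agent.SporadicStructure.QuartetGolay.smul_mem_quartets g.2 Q0_mem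
  have h2 : (g : Equiv.Perm GolayPt) • d0 = d := hg
  rw [h2] at h1
  obtain ⟨g', hg', e1, e2⟩ := (Cfsg.Agent.S1597.result d hd).2 _ h1 Q hQ
  refine ⟨⟨g', hg'⟩ * g, ?_, ?_⟩
  · rw [mul_smul, hg]; exact e1
  · rw [mul_smul]; exact e2

/-- The joint stabiliser of a dodecad and a quartet. -/
abbrev HH (d : Finset GolayPt) (Q : Finset (Finset GolayPt)) : Subgroup M24 :=
  MulAction.stabilizer M24 d ⊓ MulAction.stabilizer M24 Q

theorem HH_smul (g : M24) (d : Finset GolayPt) (Q : Finset (Finset GolayPt)) :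
    HH (g • d) (g • Q) = (HH d Q).map (MulAut.conj g).toMonoidHom := by
  rw [HH, MulAction.stabilizer_smul_eq_stabilizer_map_conj,
    MulAction.stabilizer_smul_eq_stabilizer_map_conj, HH,
    Subgroup.map_inf _ _ _ (MulAut.conj g).injective]

/-- Conjugation identifies the two stabilisers. -/
noncomputable def conjEquiv (g : M24) (d : Finset GolayPt) (Q : Finset (Finset GolayPt)) :
    HH d Q ≃* HH (g • d) (g • Q) :=
  ((MulAut.conj g).subgroupMap (HH d Q)).trans (MulEquiv.subgroupCongr (HH_smul g d Q).symm)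

/-- The joint stabiliser has order 432. -/
theorem card_HH {d : Finset GolayPt} (hd : d ∈ dodecads) {Q : Finset (Finset GolayPt)}
    (hQ : Q ∈ quartets d) : Nat.card (HH d Q) = 432 := by
  classical
  have horb : MulAction.orbit (MulAction.stabilizer M24 d) Q = quartets d := by
    ext R
    constructor
    · rintro ⟨g, rfl⟩
      have h := Cfsg.Agent.SporadicStructure.QuartetGolay.smul_mem_quartets
        (g := ((g : M24) : Equiv.Perm GolayPt)) (g : M24).2 hQ
      have h2 : ((g : M24) : Equiv.Perm GolayPt) • d = d := g.2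
      rw [h2] at h
      exact h
    · intro hR
      obtain ⟨g, hg, e1, e2⟩ := (Cfsg.Agent.S1597.result d hd).2 Q hQ R hR
      exact ⟨⟨⟨g, hg⟩, e1⟩, e2⟩
  have h1 : Nat.card (MulAction.orbit (MulAction.stabilizer M24 d) Q) *
      Nat.card (MulAction.stabilizer (MulAction.stabilizer M24 d) Q) =
      Nat.card (MulAction.stabilizer M24 d) := by
    rw [← Nat.card_prod]
    exact Nat.card_congr (MulAction.orbitProdStabilizerEquivGroup _ Q)
  rw [horb, Nat.card_coe_set_eq, (Cfsg.Agent.S1597.result d hd).1, Cfsg.Agent.S0382.result d hd]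
    at h1
  have h2 : Nat.card (MulAction.stabilizer (MulAction.stabilizer M24 d) Q) =
      Nat.card (HH d Q) := by
    refine Nat.card_congr
      { toFun := fun g => ⟨((g : MulAction.stabilizer M24 d) : M24), g.1.2, g.2⟩
        invFun := fun g => ⟨⟨(g : M24), g.2.1⟩, g.2.2⟩
        left_inv := fun g => rfl
        right_inv := fun g => rfl }
  rw [h2] at h1
  omega

/-! ### The normal subgroup of order 9 -/

theorem ext_M24 {g h : M24}
    (H : ∀ p : GolayPt, (g : Equiv.Perm GolayPt) p = (h : Equiv.Perm GolayPt) p) : g = h :=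
  Subtype.ext (Equiv.ext H)

theorem gx_mul_gy : gx * gy = gy * gx := by
  apply ext_M24
  show ∀ p : GolayPt, pt (papp PX (idx (pt (papp PY (idx p))))) =
    pt (papp PY (idx (pt (papp PX (idx p)))))
  decide +kernel

theorem gx_cube : gx * gx * gx = 1 := by
  apply ext_M24
  show ∀ p : GolayPt, pt (papp PX (idx (pt (papp PX (idx (pt (papp PX (idx p)))))))) = p
  decide +kernel

theorem gy_cube : gy * gy * gy = 1 := by
  apply ext_M24
  show ∀ p : GolayPt, pt (papp PY (idx (pt (papp PY (idx (pt (papp PY (idx p)))))))) = p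
  decide +kernel

theorem ga_mul_gx : ga * gx = gy * ga := by
  apply ext_M24
  show ∀ p : GolayPt, pt (papp PA (idx (pt (papp PX (idx p))))) =
    pt (papp PY (idx (pt (papp PA (idx p)))))
  decide +kernel

theorem ga_mul_gy : ga * gy = gx * ga := by
  apply ext_M24
  show ∀ p : GolayPt, pt (papp PA (idx (pt (papp PY (idx p))))) =
    pt (papp PX (idx (pt (papp PA (idx p)))))
  decide +kernel

theorem gb_mul_gx : gb * gx = gx * gb := by
  apply ext_M24
  show ∀ p : GolayPt, pt (papp PB (idx (pt (papp PX (idx p))))) =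
    pt (papp PX (idx (pt (papp PB (idx p)))))
  decide +kernel

theorem gb_mul_gy : gb * gy = gx * gy * gb := by
  apply ext_M24
  show ∀ p : GolayPt, pt (papp PB (idx (pt (papp PY (idx p))))) =
    pt (papp PX (idx (pt (papp PY (idx (pt (papp PB (idx p))))))))
  decide +kernel

theorem gx_pow3 : gx ^ 3 = 1 := by rw [pow_succ, pow_two]; exact gx_cube
theorem gy_pow3 : gy ^ 3 = 1 := by rw [pow_succ, pow_two]; exact gy_cube

theorem comm_xy : Commute gx gy := gx_mul_gy

/-- The elementary abelian group of order 9. -/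
def NN : Subgroup M24 where
  carrier := {h | ∃ i j : ℕ, h = gx ^ i * gy ^ j}
  one_mem' := ⟨0, 0, by simp⟩
  mul_mem' := by
    rintro _ _ ⟨i, j, rfl⟩ ⟨k, l, rfl⟩
    refine ⟨i + k, j + l, ?_⟩
    have h := (comm_xy.pow_pow k j).eq
    calc gx ^ i * gy ^ j * (gx ^ k * gy ^ l) = gx ^ i * (gy ^ j * gx ^ k) * gy ^ l := by group
      _ = gx ^ i * (gx ^ k * gy ^ j) * gy ^ l := by rw [h]
      _ = gx ^ (i + k) * gy ^ (j + l) := by rw [pow_add, pow_add]; group
  inv_mem' := by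
    rintro _ ⟨i, j, rfl⟩
    refine ⟨2 * i, 2 * j, ?_⟩
    have h1 : gx ^ i * gx ^ (2 * i) = 1 := by
      rw [← pow_add, show i + 2 * i = 3 * i by ring, pow_mul, gx_pow3, one_pow]
    have h2 : gy ^ j * gy ^ (2 * j) = 1 := by
      rw [← pow_add, show j + 2 * j = 3 * j by ring, pow_mul, gy_pow3, one_pow]
    have h := (comm_xy.pow_pow (2 * i) j).eq
    apply inv_eq_of_mul_eq_one_right
    calc gx ^ i * gy ^ j * (gx ^ (2 * i) * gy ^ (2 * j))
        = gx ^ i * (gy ^ j * gx ^ (2 * i)) * gy ^ (2 * j) := by group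
      _ = gx ^ i * (gx ^ (2 * i) * gy ^ j) * gy ^ (2 * j) := by rw [h]
      _ = (gx ^ i * gx ^ (2 * i)) * (gy ^ j * gy ^ (2 * j)) := by group
      _ = 1 := by rw [h1, h2, one_mul]

theorem mem_NN {h : M24} : h ∈ NN ↔ ∃ i j : ℕ, h = gx ^ i * gy ^ j := Iff.rfl

theorem gx_mem_NN : gx ∈ NN := ⟨1, 0, by simp⟩
theorem gy_mem_NN : gy ∈ NN := ⟨0, 1, by simp⟩

theorem NN_le : NN ≤ H0 := by
  rintro _ ⟨i, j, rfl⟩
  exact H0.mul_mem (H0.pow_mem gx_mem i) (H0.pow_mem gy_mem j)

theorem NN_comm (g : M24) (hg : g ∈ NN) (h : M24) (hh : h ∈ NN) : g * h = h * g := by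
  obtain ⟨i, j, rfl⟩ := hg
  obtain ⟨k, l, rfl⟩ := hh
  have c1 : Commute gx (gx ^ k * gy ^ l) :=
    Commute.mul_right ((Commute.refl gx).pow_right k) (comm_xy.pow_right l)
  have c2 : Commute gy (gx ^ k * gy ^ l) :=
    Commute.mul_right (comm_xy.symm.pow_right k) ((Commute.refl gy).pow_right l)
  exact (Commute.mul_left (c1.pow_left i) (c2.pow_left j)).eq

theorem NN_cube (g : M24) (hg : g ∈ NN) : g ^ 3 = 1 := by
  obtain ⟨i, j, rfl⟩ := hg
  rw [(comm_xy.pow_pow i j).mul_pow, ← pow_mul, ← pow_mul, mul_comm i, mul_comm j, pow_mul,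
    pow_mul, gx_pow3, gy_pow3, one_pow, one_pow, one_mul]

/-- Elements of `NN` in normal form. -/
noncomputable def nf (ij : Fin 3 × Fin 3) : M24 := gx ^ (ij.1 : ℕ) * gy ^ (ij.2 : ℕ)

theorem range_nf : Set.range nf = (NN : Set M24) := by
  ext h
  constructor
  · rintro ⟨ij, rfl⟩
    exact ⟨ij.1, ij.2, rfl⟩
  · rintro ⟨i, j, rfl⟩
    refine ⟨(⟨i % 3, Nat.mod_lt _ (by norm_num)⟩, ⟨j % 3, Nat.mod_lt _ (by norm_num)⟩), ?_⟩
    show gx ^ (i % 3) * gy ^ (j % 3) = gx ^ i * gy ^ j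
    rw [← pow_eq_pow_mod i gx_pow3, ← pow_eq_pow_mod j gy_pow3]

theorem nf_injective : Function.Injective nf := by
  have key : ∀ ij kl : Fin 3 × Fin 3,
      ((nf ij : M24) : Equiv.Perm GolayPt) (pt 0) = ((nf kl : M24) : Equiv.Perm GolayPt) (pt 0) →
      ((nf ij : M24) : Equiv.Perm GolayPt) (pt 4) = ((nf kl : M24) : Equiv.Perm GolayPt) (pt 4) →
      ij = kl := by
    decide +kernel
  intro ij kl h
  exact key ij kl (by rw [h]) (by rw [h])

theorem card_NN : Nat.card NN = 9 := by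
  have h : Nat.card NN = Nat.card (Set.range nf) := by rw [range_nf]; rfl
  rw [h, Nat.card_congr (Equiv.ofInjective nf nf_injective).symm, Nat.card_prod,
    Nat.card_eq_fintype_card, Fintype.card_fin]

theorem finite_NN : Finite NN := Nat.finite_of_card_ne_zero (by rw [card_NN]; norm_num)

theorem conj_pow_eq {a g h : M24} (e : a * g = h * a) (i : ℕ) : a * g ^ i = h ^ i * a := by
  induction i with
  | zero => simp
  | succ i ih => rw [pow_succ, pow_succ, ← mul_assoc, ih, mul_assoc, e, mul_assoc]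

theorem H0_le_normalizer : H0 ≤ Subgroup.normalizer (NN : Set M24) := by
  rw [H0_eq_closure, Subgroup.closure_le]
  have hfin : Finite (NN : Set M24) := finite_NN
  intro g hg
  rcases hg with rfl | hg
  · apply Subgroup.mem_normalizer_fintype
    rintro _ ⟨i, j, rfl⟩
    have e1 := conj_pow_eq ga_mul_gx i
    have e2 := conj_pow_eq ga_mul_gy j
    have : ga * (gx ^ i * gy ^ j) * ga⁻¹ = gy ^ i * gx ^ j := by
      rw [← mul_assoc, e1, mul_assoc (gy ^ i), e2, mul_assoc, mul_assoc, mul_inv_cancel, mul_one]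
    rw [this]
    exact NN.mul_mem (NN.pow_mem gy_mem_NN i) (NN.pow_mem gx_mem_NN j)
  · rw [Set.mem_singleton_iff] at hg
    subst hg
    apply Subgroup.mem_normalizer_fintype
    rintro _ ⟨i, j, rfl⟩
    have e1 := conj_pow_eq gb_mul_gx i
    have e2 := conj_pow_eq gb_mul_gy j
    have : gb * (gx ^ i * gy ^ j) * gb⁻¹ = gx ^ i * (gx * gy) ^ j := by
      rw [← mul_assoc, e1, mul_assoc (gx ^ i), e2, mul_assoc, mul_assoc, mul_inv_cancel, mul_one]
    rw [this]
    exact NN.mul_mem (NN.pow_mem gx_mem_NN i)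
      (NN.pow_mem (NN.mul_mem gx_mem_NN gy_mem_NN) j)

/-- An element of the stabiliser commuting with `gx` and `gy` lies in `NN`. -/
theorem mem_NN_of_commute {h : M24} (hh : h ∈ H0) (hx : gx * h = h * gx) (hy : gy * h = h * gy) :
    h ∈ NN := by
  -- the fixed points in `d0`
  have fx : ∀ p : GolayPt, p ∈ d0 → pt (papp PX (idx p)) = p →
      ∃ j : Fin 3, p = ((gy ^ (j : ℕ) : M24) : Equiv.Perm GolayPt) (pt 0) := by
    decide +kernel
  have fy : ∀ p : GolayPt, p ∈ d0 → pt (papp PY (idx p)) = p →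
      ∃ j : Fin 3, p = ((gx ^ (j : ℕ) : M24) : Equiv.Perm GolayPt) (pt 4) := by
    decide +kernel
  have hd : ∀ p ∈ d0, (h : Equiv.Perm GolayPt) p ∈ d0 := by
    intro p hp
    have h1 : (h : Equiv.Perm GolayPt) p ∈ (h : Equiv.Perm GolayPt) • d0 :=
      Finset.smul_mem_smul_finset hp
    have h2 : (h : Equiv.Perm GolayPt) • d0 = d0 := hh.1
    rwa [h2] at h1
  have ax : ∀ p, (gx : Equiv.Perm GolayPt) ((h : Equiv.Perm GolayPt) p) =
      (h : Equiv.Perm GolayPt) ((gx : Equiv.Perm GolayPt) p) := fun p =>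
    congrArg (fun g : M24 => (g : Equiv.Perm GolayPt) p) hx
  have ay : ∀ p, (gy : Equiv.Perm GolayPt) ((h : Equiv.Perm GolayPt) p) =
      (h : Equiv.Perm GolayPt) ((gy : Equiv.Perm GolayPt) p) := fun p =>
    congrArg (fun g : M24 => (g : Equiv.Perm GolayPt) p) hy
  have x0 : (gx : Equiv.Perm GolayPt) (pt 0) = pt 0 := by decide +kernel
  have y4 : (gy : Equiv.Perm GolayPt) (pt 4) = pt 4 := by decide +kernel
  obtain ⟨j, hj⟩ := fx ((h : Equiv.Perm GolayPt) (pt 0)) (hd _ (by decide +kernel))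
    (by
      have := ax (pt 0)
      rw [x0] at this
      exact this)
  obtain ⟨i, hi⟩ := fy ((h : Equiv.Perm GolayPt) (pt 4)) (hd _ (by decide +kernel))
    (by
      have := ay (pt 4)
      rw [y4] at this
      exact this)
  set k : M24 := gx ^ (i : ℕ) * gy ^ (j : ℕ) with hk
  have hkN : k ∈ NN := ⟨i, j, rfl⟩
  have hkH : k ∈ H0 := NN_le hkN
  have kx : gx * k = k * gx := NN_comm _ gx_mem_NN _ hkN
  have ky : gy * k = k * gy := NN_comm _ gy_mem_NN _ hkN
  have bx : ∀ p, (gx : Equiv.Perm GolayPt) ((k : Equiv.Perm GolayPt) p) =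
      (k : Equiv.Perm GolayPt) ((gx : Equiv.Perm GolayPt) p) := fun p =>
    congrArg (fun g : M24 => (g : Equiv.Perm GolayPt) p) kx
  have bY : ∀ p, (gy : Equiv.Perm GolayPt) ((k : Equiv.Perm GolayPt) p) =
      (k : Equiv.Perm GolayPt) ((gy : Equiv.Perm GolayPt) p) := fun p =>
    congrArg (fun g : M24 => (g : Equiv.Perm GolayPt) p) ky
  have e0 : (h : Equiv.Perm GolayPt) (pt 0) = (k : Equiv.Perm GolayPt) (pt 0) := by
    rw [hj]
    have : ∀ i j : Fin 3, ((gy ^ (j : ℕ) : M24) : Equiv.Perm GolayPt) (pt 0) =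
        ((gx ^ (i : ℕ) * gy ^ (j : ℕ) : M24) : Equiv.Perm GolayPt) (pt 0) := by decide +kernel
    exact this i j
  have e4 : (h : Equiv.Perm GolayPt) (pt 4) = (k : Equiv.Perm GolayPt) (pt 4) := by
    rw [hi]
    have : ∀ i j : Fin 3, ((gx ^ (i : ℕ) : M24) : Equiv.Perm GolayPt) (pt 4) =
        ((gx ^ (i : ℕ) * gy ^ (j : ℕ) : M24) : Equiv.Perm GolayPt) (pt 4) := by decide +kernel
    exact this i j
  have e1 : (h : Equiv.Perm GolayPt) (pt 1) = (k : Equiv.Perm GolayPt) (pt 1) := by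
    have : pt 1 = (gy : Equiv.Perm GolayPt) (pt 0) := by decide +kernel
    rw [this, ← ay, ← bY, e0]
  have e2 : (h : Equiv.Perm GolayPt) (pt 2) = (k : Equiv.Perm GolayPt) (pt 2) := by
    have : pt 2 = (gy : Equiv.Perm GolayPt) (pt 1) := by decide +kernel
    rw [this, ← ay, ← bY, e1]
  have e6 : (h : Equiv.Perm GolayPt) (pt 6) = (k : Equiv.Perm GolayPt) (pt 6) := by
    have : pt 6 = (gx : Equiv.Perm GolayPt) (pt 4) := by decide +kernel
    rw [this, ← ax, ← bx, e4]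
  have : h = k := by
    apply eq_of_flag hh.1 hkH.1
    rw [flagOf, flagOf, e0, e1, e2, e4, e6]
  rw [this]; exact hkN

/-- The order and the normal structure of the base stabiliser. -/
theorem structure_H0 : ∃ (N : Subgroup H0) (_ : N.Normal), Nat.card N = 9 ∧
    Nonempty (H0 ⧸ N ≃* GL (Fin 2) (ZMod 3)) := by
  have hn : (NN.subgroupOf H0).Normal := by
    constructor
    intro n hn g
    rw [Subgroup.mem_subgroupOf] at hn ⊢
    exact (Subgroup.mem_normalizer_iff.1 (H0_le_normalizer g.2) _).1 hn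
  have hc : Nat.card (NN.subgroupOf H0) = 9 := by
    rw [← card_NN]
    exact Nat.card_congr (Subgroup.subgroupOfEquivOfLe NN_le).toEquiv
  refine ⟨NN.subgroupOf H0, hn, hc, ?_⟩
  refine Cfsg.Agent.Lib.ElemAbGL.quotient_equiv_GL_two_three _ ?_ ?_ hc ?_
    (card_HH d0_mem Q0_mem)
  · intro x hx y hy
    exact Subtype.ext (NN_comm _ hx _ hy)
  · intro x hx
    exact Subtype.ext (NN_cube _ hx)
  · intro h hh
    rw [Subgroup.mem_centralizer_iff] at hh
    rw [Subgroup.mem_subgroupOf]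
    apply mem_NN_of_commute h.2
    · exact congrArg Subtype.val (hh ⟨gx, gx_mem⟩ gx_mem_NN)
    · exact congrArg Subtype.val (hh ⟨gy, gy_mem⟩ gy_mem_NN)

/-- Transport of the structure along an isomorphism. -/
theorem structure_transport {G G' : Type*} [Group G] [Group G'] (e : G ≃* G')
    (h : ∃ (N : Subgroup G) (_ : N.Normal), Nat.card N = 9 ∧
      Nonempty (G ⧸ N ≃* GL (Fin 2) (ZMod 3))) :
    ∃ (N : Subgroup G') (_ : N.Normal), Nat.card N = 9 ∧
      Nonempty (G' ⧸ N ≃* GL (Fin 2) (ZMod 3)) := by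
  obtain ⟨N, hN, h9, ⟨f⟩⟩ := h
  have hN' : (N.map e.toMonoidHom).Normal := hN.map _ e.surjective
  refine ⟨N.map e.toMonoidHom, hN', ?_, ?_⟩
  · rw [← h9]
    exact (Nat.card_congr (e.subgroupMap N).toEquiv).symm
  · exact ⟨(QuotientGroup.congr N (N.map e.toMonoidHom) e rfl).symm.trans f⟩

/-! ### Transitivity on the twelve points -/

/-- The base stabiliser is transitive on the base dodecad. -/
theorem transitive_base : ∀ p ∈ d0, ∃ g ∈ H0, (g : Equiv.Perm GolayPt) (pt 0) = p := by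
  have key : ∀ p : GolayPt, p ∈ d0 → ∃ f ∈ flagNodes, f.getD 0 0 = idx p := by
    decide +kernel
  intro p hp
  obtain ⟨f, hf, hfp⟩ := key p hp
  obtain ⟨k, hk, hkf⟩ := flagNodes_reached f hf
  refine ⟨k, closure_le hk, ?_⟩
  rw [← hkf] at hfp
  exact idx_injective hfp

theorem transitive_HH {d : Finset GolayPt} (hd : d ∈ dodecads) {Q : Finset (Finset GolayPt)}
    (hQ : Q ∈ quartets d) : ∀ p ∈ d, ∀ q ∈ d, ∃ g ∈ HH d Q, (g : Equiv.Perm GolayPt) p = q := by
  obtain ⟨g, rfl, rfl⟩ := exists_smul_eq hd hQ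
  have key : ∀ p ∈ g • d0, ∃ k ∈ H0, ((g * k : M24) : Equiv.Perm GolayPt) (pt 0) = p := by
    intro p hp
    obtain ⟨p', hp', rfl⟩ := Finset.mem_smul_finset.1 hp
    obtain ⟨k, hk, e⟩ := transitive_base p' hp'
    refine ⟨k, hk, ?_⟩
    show (g : Equiv.Perm GolayPt) ((k : Equiv.Perm GolayPt) (pt 0)) = _
    rw [e]; rfl
  intro p hp q hq
  obtain ⟨k, hk, ek⟩ := key p hp
  obtain ⟨l, hl, el⟩ := key q hq
  refine ⟨(g * l) * (g * k)⁻¹, ?_, ?_⟩
  · rw [HH_smul]
    refine ⟨l * k⁻¹, H0.mul_mem hl (H0.inv_mem hk), ?_⟩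
    show g * (l * k⁻¹) * g⁻¹ = _
    group
  · have e : ((g * k : M24) : Equiv.Perm GolayPt)⁻¹ p = pt 0 := by
      rw [← ek]
      exact ((g * k : M24) : Equiv.Perm GolayPt).symm_apply_apply _
    show ((g * l : M24) : Equiv.Perm GolayPt) (((g * k : M24) : Equiv.Perm GolayPt)⁻¹ p) = q
    rw [e, el]

end Cfsg.Agent.SporadicStructure.QuartetNormal
end
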